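import Mathlib

/-!
# Certified orders of finite Coxeter groups (helper17)

For a Coxeter matrix `M` on `Fin n` let `W_k` be the subgroup of the presented group `M.Group`
generated by the first `k` simple reflections.  For every `k` a table certifies that `W_k` is the
disjoint union of `c_k` cosets `R_v W_{k-1}`:

* the upper bound (the cosets cover `W_k`) is verified from a coset table whose entries
  `s_b R_v = R_{v'} h` (`h` a word in the generators of `W_{k-1}`) are justified one by one, in the
  order of a rank function, by the definition of the coset representatives or by one rank 2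
  relation `(s_a s_b)^m = 1`;
* the lower bound (the cosets are distinct) comes from an integral matrix representation `A` of
  `M.Group` and a vector fixed by `W_{k-1}` whose images under the `R_v` are pairwise distinct.

Consequences: `Nat.card M.Group = ∏ c_k`, and the matrix representation is faithful.
-/

set_option autoImplicit false

namespace Cfsg.Agent.Helper17.Cox

variable {n : ℕ}

/-- The data of one level. -/
structure Lvl (n : ℕ) where
  c : ℕ
  words : List (List (Fin n))
  tab : List (List (ℕ × List (Fin n)))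
  rk : List (List ℕ)
  jst : List (List ℕ)
  vecs : List (Fin n → ℤ)

namespace Lvl

variable (L : Lvl n)

def word (v : ℕ) : List (Fin n) := L.words.getD v []

def ent (v : ℕ) (b : Fin n) : ℕ × List (Fin n) := (L.tab.getD v []).getD b.val (0, [])

def rank (v : ℕ) (b : Fin n) : ℕ := (L.rk.getD v []).getD b.val 0

def just (v : ℕ) (b : Fin n) : ℕ := (L.jst.getD v []).getD b.val 0

def vec (v : ℕ) : Fin n → ℤ := L.vecs.getD v 0

end Lvl

def altList (a b : Fin n) : ℕ → List (Fin n)
  | 0 => []
  | t + 1 => a :: altList b a t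

def cancelStep (x : Fin n) : List (Fin n) → List (Fin n)
  | [] => [x]
  | y :: ys => if x = y then ys else x :: y :: ys

def cancel (w : List (Fin n)) : List (Fin n) := w.foldr cancelStep []

def walk (L : Lvl n) (r : ℕ) : List (Fin n) → ℕ → List (Fin n) → Option (ℕ × List (Fin n))
  | [], u, acc => some (u, acc)
  | x :: xs, u, acc =>
      if L.rank u x < r then walk L r xs (L.ent u x).1 ((L.ent u x).2 ++ acc) else none

def chkCycle (M : CoxeterMatrix (Fin n)) (L : Lvl n) (k v : ℕ) (b : Fin n) (a : ℕ) : Bool :=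
  if h : a < n then
    decide (a < k) && decide (0 < M ⟨a, h⟩ b) &&
      (match walk L (L.rank v b) (altList ⟨a, h⟩ b (2 * M ⟨a, h⟩ b - 1)) (L.ent v b).1 [] with
       | some (u, acc) => decide (u = v) && decide (cancel acc.reverse = (L.ent v b).2)
       | none => false)
  else false

def chkJust (M : CoxeterMatrix (Fin n)) (L : Lvl n) (k v : ℕ) (b : Fin n) : ℕ → Bool
  | 0 => decide (L.word (L.ent v b).1 = b :: L.word v) && decide ((L.ent v b).2 = [])
  | 1 => decide (L.word v = b :: L.word (L.ent v b).1) && decide ((L.ent v b).2 = [])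
  | 2 => decide (L.word v = []) && decide (L.word (L.ent v b).1 = []) &&
      decide ((L.ent v b).2 = [b])
  | (a + 3) => chkCycle M L k v b a

def chkEntry (M : CoxeterMatrix (Fin n)) (L : Lvl n) (k v : ℕ) (b : Fin n) : Bool :=
  decide ((L.ent v b).1 < L.c) && (L.ent v b).2.all (fun l => decide (l.val + 1 < k)) &&
    chkJust M L k v b (L.just v b)

def chkLvl (M : CoxeterMatrix (Fin n)) (L : Lvl n) (k : ℕ) : Bool :=
  decide (0 < L.c) && decide (L.word 0 = []) &&
    (List.range L.c).all fun v =>
      (L.word v).all (fun l => decide (l.val < k)) &&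
      (List.finRange n).all fun b => decide (k ≤ b.val) || chkEntry M L k v b

section Sem

variable (M : CoxeterMatrix (Fin n))

/-- value of a word -/
def ev (w : List (Fin n)) : M.Group := (w.map M.simple).prod

/-- the subgroup generated by the first `k` simple reflections -/
def Wsub (k : ℕ) : Subgroup M.Group :=
  Subgroup.closure {g | ∃ j : Fin n, j.val < k ∧ g = M.simple j}

theorem sq (i : Fin n) : M.simple i * M.simple i = 1 := by
  have := M.toCoxeterSystem.simple_mul_simple_self i
  rwa [CoxeterMatrix.toCoxeterSystem_simple] at this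

theorem inv_simple (i : Fin n) : (M.simple i)⁻¹ = M.simple i :=
  inv_eq_of_mul_eq_one_right (sq M i)

theorem rel (a b : Fin n) : (M.simple b * M.simple a) ^ M a b = 1 := by
  have := M.toCoxeterSystem.simple_mul_simple_pow' a b
  rwa [CoxeterMatrix.toCoxeterSystem_simple] at this

@[simp] theorem ev_nil : ev M [] = 1 := by simp [ev]

@[simp] theorem ev_cons (i : Fin n) (w : List (Fin n)) : ev M (i :: w) = M.simple i * ev M w := by
  simp [ev]

@[simp] theorem ev_append (w w' : List (Fin n)) : ev M (w ++ w') = ev M w * ev M w' := by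
  simp [ev]

theorem ev_reverse (w : List (Fin n)) : ev M w.reverse = (ev M w)⁻¹ := by
  induction w with
  | nil => simp
  | cons i w ih =>
    rw [List.reverse_cons, ev_append, ih, ev_cons, ev_cons, ev_nil, mul_one, mul_inv_rev,
      inv_simple]

theorem ev_altList_even (a b : Fin n) (j : ℕ) :
    ev M (altList a b (2 * j)) = (M.simple a * M.simple b) ^ j := by
  induction j with
  | zero => simp [altList]
  | succ j ih =>
    have : 2 * (j + 1) = 2 * j + 1 + 1 := by ring
    rw [this, altList, altList, ev_cons, ev_cons, ih, pow_succ', mul_assoc]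

theorem key_rel (a b : Fin n) (hm : 0 < M a b) :
    M.simple b * ev M (altList a b (2 * M a b - 1)).reverse = 1 := by
  obtain ⟨j, hj⟩ : ∃ j, M a b = j + 1 := ⟨M a b - 1, by omega⟩
  have h1 : 2 * M a b - 1 = 2 * j + 1 := by omega
  have hr := rel M a b
  rw [hj, pow_succ] at hr
  have hinv : ((M.simple b * M.simple a) ^ j)⁻¹ = M.simple b * M.simple a :=
    inv_eq_of_mul_eq_one_right hr
  rw [h1, altList, List.reverse_cons, ev_append, ev_reverse, ev_altList_even, hinv, ev_cons,
    ev_nil, mul_one, mul_assoc (M.simple b) (M.simple a), sq, mul_one, sq]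

theorem ev_cancelStep (x : Fin n) (st : List (Fin n)) :
    ev M (cancelStep x st) = M.simple x * ev M st := by
  cases st with
  | nil => simp [cancelStep]
  | cons y ys =>
    by_cases h : x = y
    · subst h
      simp only [cancelStep, if_true, ev_cons]
      rw [← mul_assoc, sq, one_mul]
    · simp [cancelStep, h]

theorem ev_cancel (w : List (Fin n)) : ev M (cancel w) = ev M w := by
  induction w with
  | nil => simp [cancel]
  | cons x w ih =>
    have : cancel (x :: w) = cancelStep x (cancel w) := rfl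
    rw [this, ev_cancelStep, ih, ev_cons]

theorem ev_mem (j : ℕ) (w : List (Fin n)) (hw : ∀ l ∈ w, l.val < j) : ev M w ∈ Wsub M j := by
  unfold ev
  apply Subgroup.list_prod_mem
  intro x hx
  rw [List.mem_map] at hx
  obtain ⟨l, hl, rfl⟩ := hx
  exact Subgroup.subset_closure ⟨l, hw l hl, rfl⟩

theorem Wsub_mono {j k : ℕ} (h : j ≤ k) : Wsub M j ≤ Wsub M k := by
  apply Subgroup.closure_mono
  rintro g ⟨l, hl, rfl⟩
  exact ⟨l, lt_of_lt_of_le hl h, rfl⟩

theorem mem_altList (a b : Fin n) (t : ℕ) : ∀ x ∈ altList a b t, x = a ∨ x = b := by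
  induction t generalizing a b with
  | zero => simp [altList]
  | succ t ih =>
    intro x hx
    rw [altList, List.mem_cons] at hx
    rcases hx with rfl | hx
    · exact Or.inl rfl
    · exact (ih b a x hx).symm

/-- the invariant of a table entry -/
def Inv (L : Lvl n) (v : ℕ) (b : Fin n) : Prop :=
  M.simple b * ev M (L.word v) = ev M (L.word (L.ent v b).1) * ev M (L.ent v b).2

theorem walk_sound (L : Lvl n) (k r : ℕ)
    (hP : ∀ u < L.c, ∀ x : Fin n, x.val < k → L.rank u x < r → Inv M L u x)
    (hc : ∀ u < L.c, ∀ x : Fin n, x.val < k → (L.ent u x).1 < L.c)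
    (g₀ : M.Group) (xs : List (Fin n)) :
    (∀ x ∈ xs, x.val < k) → ∀ (u : ℕ) (acc : List (Fin n)) (Y : M.Group), u < L.c →
      Y * g₀ = ev M (L.word u) * ev M acc →
      ∀ (u' : ℕ) (acc' : List (Fin n)), walk L r xs u acc = some (u', acc') →
        ev M xs.reverse * Y * g₀ = ev M (L.word u') * ev M acc' := by
  induction xs with
  | nil =>
    intro _ u acc Y _ hY u' acc' hw
    simp only [walk, Option.some.injEq, Prod.mk.injEq] at hw
    obtain ⟨rfl, rfl⟩ := hw
    simpa using hY
  | cons x xs ih =>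
    intro hxs u acc Y hu hY u' acc' hw
    have hx : x.val < k := hxs x List.mem_cons_self
    simp only [walk] at hw
    by_cases hr : L.rank u x < r
    · rw [if_pos hr] at hw
      have hinv := hP u hu x hx hr
      have hY' : (M.simple x * Y) * g₀ =
          ev M (L.word (L.ent u x).1) * ev M ((L.ent u x).2 ++ acc) := by
        rw [mul_assoc, hY, ← mul_assoc, hinv, ev_append, mul_assoc]
      have := ih (fun y hy => hxs y (List.mem_cons_of_mem _ hy)) _ _ _ (hc u hu x hx) hY' u' acc' hw
      rw [List.reverse_cons, ev_append, ev_cons, ev_nil, mul_one]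
      rw [← this]
      simp only [mul_assoc]
    · rw [if_neg hr] at hw
      exact absurd hw (by simp)

theorem chkCycle_sound (L : Lvl n) (k v : ℕ) (b : Fin n) (a : ℕ) (hb : b.val < k)
    (hP : ∀ u < L.c, ∀ x : Fin n, x.val < k → L.rank u x < L.rank v b → Inv M L u x)
    (hc : ∀ u < L.c, ∀ x : Fin n, x.val < k → (L.ent u x).1 < L.c)
    (h1 : (L.ent v b).1 < L.c)
    (h : chkCycle M L k v b a = true) : Inv M L v b := by
  unfold chkCycle at h
  by_cases ha : a < n
  · rw [dif_pos ha] at h
    simp only [Bool.and_eq_true, decide_eq_true_eq] at h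
    obtain ⟨⟨hak, hm⟩, hw⟩ := h
    split at hw
    · rename_i u acc heq
      simp only [Bool.and_eq_true, decide_eq_true_eq] at hw
      obtain ⟨rfl, hcan⟩ := hw
      have hxs : ∀ x ∈ altList ⟨a, ha⟩ b (2 * M ⟨a, ha⟩ b - 1), x.val < k := by
        intro x hx
        rcases mem_altList _ _ _ x hx with rfl | rfl
        · exact hak
        · exact hb
      have key := walk_sound M L k (L.rank u b) hP hc (ev M (L.word (L.ent u b).1)) _ hxs
        (L.ent u b).1 [] 1 h1 (by simp) u acc heq
      rw [mul_one] at key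
      have hrel := key_rel M ⟨a, ha⟩ b hm
      unfold Inv
      have e1 : M.simple b * ev M (L.word u) * ev M acc = ev M (L.word (L.ent u b).1) := by
        rw [mul_assoc, ← key, ← mul_assoc, hrel, one_mul]
      rw [← hcan, ev_cancel, ev_reverse, ← e1, mul_assoc, mul_inv_cancel, mul_one]
    · exact absurd hw (by simp)
  · rw [dif_neg ha] at h
    exact absurd h (by simp)

theorem inv_of_chk (L : Lvl n) (k : ℕ) (h : chkLvl M L k = true) :
    ∀ v < L.c, ∀ b : Fin n, b.val < k → Inv M L v b ∧ (L.ent v b).1 < L.c ∧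
      (∀ l ∈ (L.ent v b).2, l.val + 1 < k) := by
  unfold chkLvl at h
  simp only [Bool.and_eq_true, decide_eq_true_eq, List.all_eq_true, List.mem_range,
    List.mem_finRange, Bool.or_eq_true, forall_const] at h
  obtain ⟨-, hall⟩ := h
  have hE : ∀ v < L.c, ∀ b : Fin n, b.val < k → chkEntry M L k v b = true := by
    intro v hv b hb
    rcases (hall v hv).2 b with h | h
    · omega
    · exact h
  have hE' : ∀ v < L.c, ∀ b : Fin n, b.val < k → (L.ent v b).1 < L.c ∧
      (∀ l ∈ (L.ent v b).2, l.val + 1 < k) ∧ chkJust M L k v b (L.just v b) = true := by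
    intro v hv b hb
    have := hE v hv b hb
    unfold chkEntry at this
    simp only [Bool.and_eq_true, decide_eq_true_eq, List.all_eq_true] at this
    exact ⟨this.1.1, this.1.2, this.2⟩
  have hc : ∀ u < L.c, ∀ x : Fin n, x.val < k → (L.ent u x).1 < L.c :=
    fun u hu x hx => (hE' u hu x hx).1
  have main : ∀ r, ∀ v < L.c, ∀ b : Fin n, b.val < k → L.rank v b < r → Inv M L v b := by
    intro r
    induction r with
    | zero => intro v _ b _ hr; omega
    | succ r ih =>
      intro v hv b hb hr
      obtain ⟨h1, h2, h3⟩ := hE' v hv b hb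
      generalize L.just v b = j at h3
      match j, h3 with
      | 0, h3 =>
        simp only [chkJust, Bool.and_eq_true, decide_eq_true_eq] at h3
        unfold Inv
        rw [h3.1, h3.2]
        simp
      | 1, h3 =>
        simp only [chkJust, Bool.and_eq_true, decide_eq_true_eq] at h3
        unfold Inv
        rw [h3.1, h3.2, ev_cons, ← mul_assoc, sq]
        simp
      | 2, h3 =>
        simp only [chkJust, Bool.and_eq_true, decide_eq_true_eq] at h3
        unfold Inv
        rw [h3.1.1, h3.1.2, h3.2]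
        simp
      | (a + 3), h3 =>
        simp only [chkJust] at h3
        exact chkCycle_sound M L k v b a hb
          (fun u hu x hx hlt => ih u hu x hx (by omega)) hc h1 h3
  intro v hv b hb
  exact ⟨main _ v hv b hb (Nat.lt_succ_self _), (hE' v hv b hb).1, (hE' v hv b hb).2.1⟩

theorem chk_basic (L : Lvl n) (k : ℕ) (h : chkLvl M L k = true) :
    0 < L.c ∧ L.word 0 = [] ∧ ∀ v < L.c, ∀ l ∈ L.word v, l.val < k := by
  unfold chkLvl at h
  simp only [Bool.and_eq_true, decide_eq_true_eq, List.all_eq_true, List.mem_range,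
    List.mem_finRange, Bool.or_eq_true, forall_const] at h
  exact ⟨h.1.1, h.1.2, fun v hv => (h.2 v hv).1⟩

/-- the cosets cover `W_k` -/
theorem mem_cosets (L : Lvl n) (k : ℕ) (h : chkLvl M L k = true) :
    ∀ g ∈ Wsub M k, ∃ v < L.c, ∃ x ∈ Wsub M (k - 1), g = ev M (L.word v) * x := by
  have hinv := inv_of_chk M L k h
  obtain ⟨hc0, hw0, -⟩ := chk_basic M L k h
  have key : ∀ b : Fin n, b.val < k →
      ∀ g : M.Group, (∃ v < L.c, ∃ x ∈ Wsub M (k - 1), g = ev M (L.word v) * x) →
      ∃ v < L.c, ∃ x ∈ Wsub M (k - 1), M.simple b * g = ev M (L.word v) * x := by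
    rintro b hb g ⟨v, hv, x, hx, rfl⟩
    obtain ⟨hI, hlt, hl⟩ := hinv v hv b hb
    refine ⟨(L.ent v b).1, hlt, ev M (L.ent v b).2 * x, ?_, ?_⟩
    · exact Subgroup.mul_mem _ (ev_mem M _ _ (fun l hl' => by have := hl l hl'; omega)) hx
    · rw [← mul_assoc, hI, mul_assoc]
  intro g hg
  have hP : (∀ y : M.Group, (∃ v < L.c, ∃ x ∈ Wsub M (k - 1), y = ev M (L.word v) * x) →
        ∃ v < L.c, ∃ x ∈ Wsub M (k - 1), g * y = ev M (L.word v) * x) ∧
      (∀ y : M.Group, (∃ v < L.c, ∃ x ∈ Wsub M (k - 1), y = ev M (L.word v) * x) →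
        ∃ v < L.c, ∃ x ∈ Wsub M (k - 1), g⁻¹ * y = ev M (L.word v) * x) := by
    refine Subgroup.closure_induction (p := fun (z : M.Group) _ =>
      (∀ y : M.Group, (∃ v < L.c, ∃ x ∈ Wsub M (k - 1), y = ev M (L.word v) * x) →
        ∃ v < L.c, ∃ x ∈ Wsub M (k - 1), z * y = ev M (L.word v) * x) ∧
      (∀ y : M.Group, (∃ v < L.c, ∃ x ∈ Wsub M (k - 1), y = ev M (L.word v) * x) →
        ∃ v < L.c, ∃ x ∈ Wsub M (k - 1), z⁻¹ * y = ev M (L.word v) * x)) ?_ ?_ ?_ ?_ hg
    · rintro z ⟨b, hb, rfl⟩
      refine ⟨key b hb, ?_⟩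
      rw [inv_simple]
      exact key b hb
    · simp
    · rintro x y - - ⟨hx1, hx2⟩ ⟨hy1, hy2⟩
      refine ⟨fun z hz => ?_, fun z hz => ?_⟩
      · rw [mul_assoc]; exact hx1 _ (hy1 z hz)
      · rw [mul_inv_rev, mul_assoc]; exact hy2 _ (hx2 z hz)
    · rintro x - ⟨hx1, hx2⟩
      refine ⟨hx2, ?_⟩
      rw [inv_inv]; exact hx1
  have := hP.1 1 ⟨0, hc0, 1, Subgroup.one_mem _, by rw [hw0]; simp⟩
  simpa using this

section Rep

variable (A : Fin n → Matrix (Fin n) (Fin n) ℤ) (hA : M.IsLiftable A)

/-- the matrix representation -/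
def rho : M.Group →* Matrix (Fin n) (Fin n) ℤ := M.toCoxeterSystem.lift ⟨A, hA⟩

theorem rho_simple (i : Fin n) : rho M A hA (M.simple i) = A i := by
  have := M.toCoxeterSystem.lift_apply_simple hA i
  rwa [CoxeterMatrix.toCoxeterSystem_simple] at this

def applyWord (w : List (Fin n)) (x : Fin n → ℤ) : Fin n → ℤ :=
  w.foldr (fun i y => (A i).mulVec y) x

theorem rho_ev (w : List (Fin n)) (x : Fin n → ℤ) :
    (rho M A hA (ev M w)).mulVec x = applyWord A w x := by
  induction w with
  | nil => simp [applyWord]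
  | cons i w ih =>
    rw [ev_cons, map_mul, rho_simple, ← Matrix.mulVec_mulVec, ih]
    rfl

def chkVec (L : Lvl n) (k : ℕ) : Bool :=
  decide (L.vecs.length = L.c) && decide (L.vecs.Nodup) &&
    ((List.range L.c).all fun v => decide (applyWord A (L.word v) (L.vec 0) = L.vec v)) &&
    ((List.finRange n).all fun j =>
      decide (k ≤ j.val + 1) || decide ((A j).mulVec (L.vec 0) = L.vec 0))

theorem chkVec_spec (L : Lvl n) (k : ℕ) (h : chkVec A L k = true) :
    L.vecs.length = L.c ∧ L.vecs.Nodup ∧
    (∀ v < L.c, applyWord A (L.word v) (L.vec 0) = L.vec v) ∧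
    (∀ j : Fin n, j.val + 1 < k → (A j).mulVec (L.vec 0) = L.vec 0) := by
  unfold chkVec at h
  simp only [Bool.and_eq_true, decide_eq_true_eq, List.all_eq_true, List.mem_range,
    List.mem_finRange, Bool.or_eq_true, forall_const] at h
  refine ⟨h.1.1.1, h.1.1.2, h.1.2, fun j hj => ?_⟩
  rcases h.2 j with h' | h'
  · omega
  · exact h'

theorem fix_of_mem (L : Lvl n) (k : ℕ) (h : chkVec A L k = true) :
    ∀ x ∈ Wsub M (k - 1), (rho M A hA x).mulVec (L.vec 0) = L.vec 0 := by
  obtain ⟨-, -, -, hfix⟩ := chkVec_spec A L k h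
  intro x hx
  refine Subgroup.closure_induction (p := fun (z : M.Group) _ =>
    (rho M A hA z).mulVec (L.vec 0) = L.vec 0) ?_ ?_ ?_ ?_ hx
  · rintro z ⟨j, hj, rfl⟩
    rw [rho_simple]
    exact hfix j (by omega)
  · simp
  · intro x y _ _ hx hy
    rw [map_mul, ← Matrix.mulVec_mulVec, hy, hx]
  · intro x _ hx
    have : (rho M A hA x⁻¹).mulVec ((rho M A hA x).mulVec (L.vec 0)) = L.vec 0 := by
      rw [Matrix.mulVec_mulVec, ← map_mul, inv_mul_cancel, map_one, Matrix.one_mulVec]
    rwa [hx] at this

theorem vec_of_coset (L : Lvl n) (k : ℕ) (h : chkVec A L k = true) (v : ℕ) (hv : v < L.c)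
    (x : M.Group) (hx : x ∈ Wsub M (k - 1)) :
    (rho M A hA (ev M (L.word v) * x)).mulVec (L.vec 0) = L.vec v := by
  rw [map_mul, ← Matrix.mulVec_mulVec, fix_of_mem M A hA L k h x hx, rho_ev]
  exact (chkVec_spec A L k h).2.2.1 v hv

theorem vec_inj (L : Lvl n) (k : ℕ) (h : chkVec A L k = true) (v v' : ℕ) (hv : v < L.c)
    (hv' : v' < L.c) (e : L.vec v = L.vec v') : v = v' := by
  obtain ⟨hlen, hnd, -, -⟩ := chkVec_spec A L k h
  unfold Lvl.vec at e
  rw [List.getD_eq_getElem _ _ (by omega), List.getD_eq_getElem _ _ (by omega)] at e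
  exact (List.Nodup.getElem_inj_iff hnd).mp e

theorem level_main (L : Lvl n) (k : ℕ) (hk : 1 ≤ k) (h1 : chkLvl M L k = true)
    (h2 : chkVec A L k = true) :
    Nat.card (Wsub M k) = L.c * Nat.card (Wsub M (k - 1)) ∧
    (∀ g ∈ Wsub M k, (rho M A hA g).mulVec (L.vec 0) = L.vec 0 → g ∈ Wsub M (k - 1)) := by
  obtain ⟨hc0, hw0, hwk⟩ := chk_basic M L k h1
  have hcos := mem_cosets M L k h1
  have hle : Wsub M (k - 1) ≤ Wsub M k := Wsub_mono M (by omega)
  constructor
  · rw [← Nat.card_fin L.c, ← Nat.card_prod]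
    symm
    refine Nat.card_congr (Equiv.ofBijective
      (fun p : Fin L.c × Wsub M (k - 1) => (⟨ev M (L.word p.1.val) * p.2.1,
        Subgroup.mul_mem _ (ev_mem M k _ (hwk p.1.val p.1.2)) (hle p.2.2)⟩ : Wsub M k))
      ⟨?_, ?_⟩)
    · rintro ⟨⟨v, hv⟩, ⟨x, hx⟩⟩ ⟨⟨v', hv'⟩, ⟨x', hx'⟩⟩ e
      simp only [Subtype.mk.injEq] at e
      have e1 := vec_of_coset M A hA L k h2 v hv x hx
      have e2 := vec_of_coset M A hA L k h2 v' hv' x' hx'
      rw [e] at e1
      have hvv : v = v' := vec_inj A L k h2 v v' hv hv' (e1.symm.trans e2)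
      subst hvv
      have hxx : x = x' := mul_left_cancel e
      subst hxx
      rfl
    · rintro ⟨g, hg⟩
      obtain ⟨v, hv, x, hx, rfl⟩ := hcos g hg
      exact ⟨⟨⟨v, hv⟩, ⟨x, hx⟩⟩, rfl⟩
  · intro g hg hfix
    obtain ⟨v, hv, x, hx, rfl⟩ := hcos g hg
    have e1 := vec_of_coset M A hA L k h2 v hv x hx
    have hv0 : v = 0 := vec_inj A L k h2 v 0 hv hc0 (e1.symm.trans hfix)
    subst hv0
    rw [hw0, ev_nil, one_mul]
    exact hx

/-- default level -/
def dflt : Lvl n := ⟨0, [], [], [], [], []⟩

def chkAll (Ls : List (Lvl n)) : Bool :=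
  (List.range n).all fun i =>
    chkLvl M (Ls.getD i dflt) (i + 1) && chkVec A (Ls.getD i dflt) (i + 1)

theorem Wsub_zero : Wsub M 0 = ⊥ := by
  unfold Wsub
  rw [Subgroup.closure_eq_bot_iff]
  rintro g ⟨j, hj, rfl⟩
  exact absurd hj (Nat.not_lt_zero _)

theorem Wsub_top : Wsub M n = ⊤ := by
  rw [← M.toCoxeterSystem.subgroup_closure_range_simple, CoxeterMatrix.toCoxeterSystem_simple]
  unfold Wsub
  congr 1
  ext g
  constructor
  · rintro ⟨j, -, rfl⟩
    exact ⟨j, rfl⟩
  · rintro ⟨j, rfl⟩
    exact ⟨j, j.2, rfl⟩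

theorem chain (Ls : List (Lvl n)) (h : chkAll M A Ls = true) :
    ∀ k ≤ n, Nat.card (Wsub M k) = ((List.range k).map fun i => (Ls.getD i dflt).c).prod ∧
      (∀ g ∈ Wsub M k, rho M A hA g = 1 → g = 1) := by
  unfold chkAll at h
  simp only [List.all_eq_true, List.mem_range, Bool.and_eq_true] at h
  intro k
  induction k with
  | zero =>
    intro _
    rw [Wsub_zero]
    refine ⟨by simp, fun g hg _ => by simpa using hg⟩
  | succ k ih =>
    intro hk
    obtain ⟨ih1, ih2⟩ := ih (by omega)
    obtain ⟨h1, h2⟩ := h k (by omega)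
    obtain ⟨hcard, hstab⟩ := level_main M A hA (Ls.getD k dflt) (k + 1) (by omega) h1 h2
    rw [Nat.add_sub_cancel] at hcard hstab
    constructor
    · rw [hcard, ih1, List.range_succ, List.map_append, List.prod_append]
      simp [mul_comm]
    · intro g hg hg1
      apply ih2 g _ hg1
      apply hstab g hg
      rw [hg1, Matrix.one_mulVec]

include hA in
theorem card_group (Ls : List (Lvl n)) (h : chkAll M A Ls = true) :
    Nat.card M.Group = ((List.range n).map fun i => (Ls.getD i dflt).c).prod := by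
  have := (chain M A hA Ls h n le_rfl).1
  rwa [Wsub_top, Subgroup.card_top] at this

theorem rho_injective (Ls : List (Lvl n)) (h : chkAll M A Ls = true) :
    Function.Injective (rho M A hA) := by
  rw [injective_iff_map_eq_one]
  intro g hg
  have := (chain M A hA Ls h n le_rfl).2 g
  rw [Wsub_top] at this
  exact this (Subgroup.mem_top g) hg

include hA in
/-- order of the Coxeter element -/
theorem coxeter_order (Ls : List (Lvl n)) (h : chkAll M A Ls = true) (N : ℕ) (hN : 0 < N)
    (h1 : (((List.finRange n).map A).prod) ^ N = 1)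
    (h2 : ∀ m < N, 0 < m → (((List.finRange n).map A).prod) ^ m ≠ 1) :
    orderOf (((List.finRange n).map M.simple).prod) = N := by
  rw [← orderOf_injective (rho M A hA) (rho_injective M A hA Ls h), map_list_prod, List.map_map]
  have : (⇑(rho M A hA) ∘ M.simple) = A := funext fun i => rho_simple M A hA i
  rw [this]
  exact (orderOf_eq_iff hN).mpr ⟨h1, h2⟩

end Rep

end Sem

end Cfsg.Agent.Helper17.Cox
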