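import Mathlib
import Cfsg.Agent.Helper17.Cox

/-!
# Centres of finite Coxeter groups and generation by the Coxeter element (helper17)

Uses the faithful integral reflection representation `rho` certified in `Cox.lean`.
-/

set_option autoImplicit false

namespace Cfsg.Agent.Helper17.Cox

variable {n : ℕ}

section Centre

variable (A : Fin n → Matrix (Fin n) (Fin n) ℤ)

/-- shape of the reflection matrices: row `i` of `A i` is `-e_i`, column `k ≠ i` of `A i` is
`e_k`. -/
def chkShape : Bool :=
  (List.finRange n).all fun i => (List.finRange n).all fun l =>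
    decide ((A i) i l = if l = i then -1 else 0) &&
    (List.finRange n).all fun k => decide (k = i) || decide ((A i) l k = if l = k then 1 else 0)

theorem chkShape_spec (h : chkShape A = true) :
    (∀ i l, (A i) i l = if l = i then -1 else 0) ∧
    (∀ i l k, k ≠ i → (A i) l k = if l = k then 1 else 0) := by
  unfold chkShape at h
  simp only [List.all_eq_true, List.mem_finRange, Bool.and_eq_true, decide_eq_true_eq,
    Bool.or_eq_true, forall_const] at h
  refine ⟨fun i l => (h i l).1, fun i l k hk => ?_⟩
  rcases (h i l).2 k with h' | h'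
  · exact absurd h' hk
  · exact h'

theorem diag_of_commute (h : chkShape A = true) (Z : Matrix (Fin n) (Fin n) ℤ)
    (hZ : ∀ i, Z * A i = A i * Z) : ∀ i k, k ≠ i → Z i k = 0 := by
  obtain ⟨hrow, hcol⟩ := chkShape_spec A h
  intro i k hk
  have e := congrFun (congrFun (hZ i) i) k
  simp only [Matrix.mul_apply] at e
  have e1 : (∑ l, Z i l * A i l k) = Z i k := by
    rw [Finset.sum_eq_single k (fun l _ hl => by rw [hcol i l k hk, if_neg hl, mul_zero])
      (by simp)]
    rw [hcol i k k hk, if_pos rfl, mul_one]
  have e2 : (∑ l, A i i l * Z l k) = - Z i k := by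
    rw [Finset.sum_eq_single i (fun l _ hl => by rw [hrow i l, if_neg hl, zero_mul])
      (by simp)]
    rw [hrow i i, if_pos rfl]
    ring
  rw [e1, e2] at e
  omega

/-- the matrix used to propagate equality of the diagonal entries -/
def connMat (d : ℕ) : Matrix (Fin n) (Fin n) ℤ := (((List.finRange n).map A).sum) ^ d

def chkConn (i0 : Fin n) (d : ℕ) : Bool :=
  (List.finRange n).all fun k => decide (k = i0) || decide (connMat A d i0 k ≠ 0)

theorem commute_connMat (d : ℕ) (Z : Matrix (Fin n) (Fin n) ℤ)
    (hZ : ∀ i, Z * A i = A i * Z) : Z * connMat A d = connMat A d * Z := by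
  have h1 : Commute Z (((List.finRange n).map A).sum) := by
    apply Commute.list_sum_right
    intro X hX
    rw [List.mem_map] at hX
    obtain ⟨i, -, rfl⟩ := hX
    exact hZ i
  exact (h1.pow_right d)

theorem scalar_of_commute (h : chkShape A = true) (i0 : Fin n) (d : ℕ)
    (hconn : chkConn A i0 d = true) (Z : Matrix (Fin n) (Fin n) ℤ)
    (hZ : ∀ i, Z * A i = A i * Z) : Z = Z i0 i0 • (1 : Matrix (Fin n) (Fin n) ℤ) := by
  have hd := diag_of_commute A h Z hZ
  have hQ := commute_connMat A d Z hZ
  unfold chkConn at hconn
  simp only [List.all_eq_true, List.mem_finRange, decide_eq_true_eq,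
    Bool.or_eq_true, forall_const] at hconn
  have key : ∀ k, Z k k = Z i0 i0 := by
    intro k
    rcases hconn k with rfl | hk
    · rfl
    · have e := congrFun (congrFun hQ i0) k
      simp only [Matrix.mul_apply] at e
      rw [Finset.sum_eq_single i0 (fun l _ hl => by rw [hd i0 l hl, zero_mul]) (by simp),
        Finset.sum_eq_single k (fun l _ hl => by rw [hd l k (Ne.symm hl), mul_zero]) (by simp)] at e
      have e' : (Z i0 i0 - Z k k) * connMat A d i0 k = 0 := by rw [sub_mul, e]; ring
      rcases mul_eq_zero.mp e' with e'' | e''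
      · omega
      · exact absurd e'' hk
  ext j k
  by_cases hjk : j = k
  · subst hjk
    simp [key j]
  · simp [hjk, hd j k (Ne.symm hjk)]

end Centre

section CentreGroup

variable (M : CoxeterMatrix (Fin n)) (A : Fin n → Matrix (Fin n) (Fin n) ℤ) (hA : M.IsLiftable A)

theorem rho_centre (hs : chkShape A = true) (i0 : Fin n) (d : ℕ)
    (hconn : chkConn A i0 d = true) (z : M.Group) (hz : z ∈ Subgroup.center M.Group) :
    rho M A hA z = 1 ∨ rho M A hA z = -1 := by
  have hZ : ∀ i, rho M A hA z * A i = A i * rho M A hA z := by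
    intro i
    rw [← rho_simple M A hA i, ← map_mul, ← map_mul]
    congr 1
    exact (Subgroup.mem_center_iff.mp hz (M.simple i)).symm
  have hsc := scalar_of_commute A hs i0 d hconn _ hZ
  have h1 : rho M A hA z * rho M A hA z⁻¹ = 1 := by
    rw [← map_mul, mul_inv_cancel, map_one]
  have h2 := congrFun (congrFun h1 i0) i0
  rw [hsc] at h2
  simp only [Matrix.smul_mul, Matrix.one_mul, Matrix.smul_apply, Matrix.one_apply_eq,
    smul_eq_mul] at h2
  rcases Int.eq_one_or_neg_one_of_mul_eq_one h2 with h3 | h3
  · left
    rw [hsc, h3, one_smul]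
  · right
    rw [hsc, h3]
    simp

include hA in
theorem centre_two (Ls : List (Lvl n)) (h : chkAll M A Ls = true) (hs : chkShape A = true)
    (i0 : Fin n) (d : ℕ) (hconn : chkConn A i0 d = true) (m : ℕ)
    (hm : (((List.finRange n).map A).prod) ^ m = -1) :
    Nat.card (Subgroup.center M.Group) = 2 ∧
      Subgroup.center M.Group ≤ Subgroup.zpowers (((List.finRange n).map M.simple).prod) := by
  have hinj := rho_injective M A hA Ls h
  have hρc : rho M A hA ((((List.finRange n).map M.simple).prod) ^ m) = -1 := by
    rw [map_pow, map_list_prod, List.map_map]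
    have : (⇑(rho M A hA) ∘ M.simple) = A := funext fun i => rho_simple M A hA i
    rw [this]
    exact hm
  generalize ((List.finRange n).map M.simple).prod = c at hρc ⊢
  have hne : (-1 : Matrix (Fin n) (Fin n) ℤ) ≠ 1 := by
    intro e
    have := congrFun (congrFun e i0) i0
    simp at this
  have hcm_ne : c ^ m ≠ 1 := by
    intro e
    rw [e, map_one] at hρc
    exact hne hρc.symm
  have hcm_sq : (c ^ m) ^ 2 = 1 := by
    apply hinj
    rw [map_pow, hρc, map_one]
    simp
  have hcm_central : c ^ m ∈ Subgroup.center M.Group := by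
    rw [Subgroup.mem_center_iff]
    intro g
    apply hinj
    rw [map_mul, map_mul, hρc]
    simp
  have hcenter : Subgroup.center M.Group = Subgroup.zpowers (c ^ m) := by
    apply le_antisymm
    · intro z hz
      rcases rho_centre M A hA hs i0 d hconn z hz with h1 | h1
      · have : z = 1 := hinj (by rw [h1, map_one])
        rw [this]
        exact Subgroup.one_mem _
      · have : z = c ^ m := hinj (by rw [h1, hρc])
        rw [this]
        exact Subgroup.mem_zpowers _
    · rw [Subgroup.zpowers_le]
      exact hcm_central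
  constructor
  · rw [hcenter, Nat.card_zpowers]
    exact orderOf_eq_prime hcm_sq hcm_ne
  · rw [hcenter, Subgroup.zpowers_le]
    exact Subgroup.pow_mem _ (Subgroup.mem_zpowers c) m

/-- a functional mod 3 invariant under all reflections: `-1` is not in the image -/
def chkFun (u : Fin n → ℤ) : Bool :=
  (List.finRange n).all fun i => (List.finRange n).all fun k =>
    decide ((3 : ℤ) ∣ (Matrix.vecMul u (A i)) k - u k)

theorem rho_ne_neg_one (u : Fin n → ℤ) (hu : chkFun A u = true) (k0 : Fin n)
    (hk0 : ¬ (3 : ℤ) ∣ u k0) (g : M.Group) : rho M A hA g ≠ -1 := by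
  unfold chkFun at hu
  simp only [List.all_eq_true, List.mem_finRange, decide_eq_true_eq, forall_const] at hu
  have key : ∀ g : M.Group, ∀ k, (3 : ℤ) ∣ (Matrix.vecMul u (rho M A hA g)) k - u k := by
    intro g
    refine M.toCoxeterSystem.simple_induction_left (p := fun g => ∀ k,
      (3 : ℤ) ∣ (Matrix.vecMul u (rho M A hA g)) k - u k) g ?_ ?_
    · intro k
      simp
    · intro w i ih k
      rw [CoxeterMatrix.toCoxeterSystem_simple, map_mul, rho_simple, ← Matrix.vecMul_vecMul]
      have e : Matrix.vecMul (Matrix.vecMul u (A i)) (rho M A hA w) k - u k =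
          Matrix.vecMul (Matrix.vecMul u (A i) - u) (rho M A hA w) k +
            (Matrix.vecMul u (rho M A hA w) k - u k) := by
        rw [Matrix.sub_vecMul]
        simp
      rw [e]
      apply dvd_add _ (ih k)
      simp only [Matrix.vecMul, dotProduct]
      apply Finset.dvd_sum
      intro l _
      exact Dvd.dvd.mul_right (hu i l) _
  intro e
  have := key g k0
  rw [e] at this
  simp only [Matrix.vecMul_neg, Matrix.vecMul_one, Pi.neg_apply] at this
  omega

include hA in
theorem centre_one (Ls : List (Lvl n)) (h : chkAll M A Ls = true) (hs : chkShape A = true)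
    (i0 : Fin n) (d : ℕ) (hconn : chkConn A i0 d = true) (u : Fin n → ℤ)
    (hu : chkFun A u = true) (k0 : Fin n) (hk0 : ¬ (3 : ℤ) ∣ u k0) (H : Subgroup M.Group) :
    Nat.card (Subgroup.center M.Group) = 1 ∧ Subgroup.center M.Group ≤ H := by
  have hinj := rho_injective M A hA Ls h
  have hcenter : Subgroup.center M.Group = ⊥ := by
    rw [Subgroup.eq_bot_iff_forall]
    intro z hz
    rcases rho_centre M A hA hs i0 d hconn z hz with h1 | h1
    · exact hinj (by rw [h1, map_one])
    · exact absurd h1 (rho_ne_neg_one M A hA u hu k0 hk0 z)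
  rw [hcenter]
  exact ⟨Subgroup.card_bot, bot_le⟩

end CentreGroup

end Cfsg.Agent.Helper17.Cox
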