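import Mathlib
import Cfsg.Agent.Helper17.Cox

set_option autoImplicit false

namespace Cfsg.Agent.Helper17.CoxDataB2

open Cfsg.Agent.Helper17.Cox

abbrev CM : CoxeterMatrix (Fin 2) := CoxeterMatrix.B 2

def A : Fin 2 → Matrix (Fin 2) (Fin 2) ℤ := ![!![-1, 0; 2, 1], !![1, 1; 0, -1]]

def L1 : Lvl 2 :=
  { c := 2
    words := [[], [0]]
    tab := [[(1, [])], [(0, [])]]
    rk := [[2], [2]]
    jst := [[0], [1]]
    vecs := [![1, 0], ![-1, 2]] }

def L2 : Lvl 2 :=
  { c := 4
    words := [[], [1], [0, 1], [1, 0, 1]]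
    tab := [[(0, [0]), (1, [])], [(2, []), (0, [])], [(1, []), (3, [])], [(3, [0]), (2, [])]]
    rk := [[1, 2], [4, 2], [4, 6], [7, 6]]
    jst := [[2, 0], [0, 1], [1, 0], [4, 1]]
    vecs := [![0, 1], ![1, -1], ![-1, 1], ![0, -1]] }

def Ls : List (Lvl 2) := [L1, L2]

set_option maxHeartbeats 0 in
theorem hA : CM.IsLiftable A := by
  unfold CoxeterMatrix.IsLiftable
  decide +kernel

set_option maxHeartbeats 0 in
theorem hchk : chkAll CM A Ls = true := by decide +kernel

theorem card : Nat.card CM.Group = 8 := by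
  rw [card_group CM A hA Ls hchk]
  decide +kernel

set_option maxHeartbeats 0 in
theorem cox : orderOf (((List.finRange 2).map CM.simple).prod) = 4 := by
  refine coxeter_order CM A hA Ls hchk 4 (by norm_num) ?_ ?_
  · decide +kernel
  · decide +kernel

end Cfsg.Agent.Helper17.CoxDataB2
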