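import Mathlib
import Cfsg.Prelude.Def_ChevStructure
import Cfsg.Agent.Helper17.Cox

set_option autoImplicit false

namespace Cfsg.Agent.Helper17.CoxDataD4

open Cfsg.Agent.Helper17.Cox

abbrev CM : CoxeterMatrix (Fin 4) := Cfsg.Lie.coxeterD4

def A : Fin 4 → Matrix (Fin 4) (Fin 4) ℤ := ![!![-1, 0, 0, 0; 1, 1, 0, 0; 0, 0, 1, 0; 0, 0, 0, 1], !![1, 1, 0, 0; 0, -1, 0, 0; 0, 1, 1, 0; 0, 1, 0, 1], !![1, 0, 0, 0; 0, 1, 1, 0; 0, 0, -1, 0; 0, 0, 0, 1], !![1, 0, 0, 0; 0, 1, 0, 1; 0, 0, 1, 0; 0, 0, 0, -1]]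

def L1 : Lvl 4 :=
  { c := 2
    words := [[], [0]]
    tab := [[(1, [])], [(0, [])]]
    rk := [[2], [2]]
    jst := [[0], [1]]
    vecs := [![1, 0, 0, 0], ![-1, 1, 0, 0]] }

def L2 : Lvl 4 :=
  { c := 3
    words := [[], [1], [0, 1]]
    tab := [[(0, [0]), (1, [])], [(2, []), (0, [])], [(1, []), (2, [0])]]
    rk := [[1, 2], [4, 2], [4, 5]]
    jst := [[2, 0], [0, 1], [1, 3]]
    vecs := [![0, 1, 0, 0], ![1, -1, 1, 1], ![-1, 0, 1, 1]] }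

def L3 : Lvl 4 :=
  { c := 4
    words := [[], [2], [1, 2], [0, 1, 2]]
    tab := [[(0, [0]), (0, [1]), (1, [])], [(1, [0]), (2, []), (0, [])], [(3, []), (1, []), (2, [1])], [(2, []), (3, [0]), (3, [1])]]
    rk := [[1, 1, 2], [3, 4, 2], [6, 4, 5], [6, 7, 7]]
    jst := [[2, 2, 0], [5, 0, 1], [0, 1, 4], [1, 3, 3]]
    vecs := [![0, 0, 1, 0], ![0, 1, -1, 0], ![1, -1, 0, 1], ![-1, 0, 0, 1]] }

def L4 : Lvl 4 :=
  { c := 8
    words := [[], [3], [1, 3], [0, 1, 3], [2, 1, 3], [2, 0, 1, 3], [1, 2, 0, 1, 3], [3, 1, 2, 0, 1, 3]]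
    tab := [[(0, [0]), (0, [1]), (0, [2]), (1, [])], [(1, [0]), (2, []), (1, [2]), (0, [])], [(3, []), (1, []), (4, []), (2, [1])], [(2, []), (3, [0]), (5, []), (3, [1])], [(5, []), (4, [2]), (2, []), (4, [1])], [(4, []), (6, []), (3, []), (5, [1])], [(6, [2]), (5, []), (6, [0]), (7, [])], [(7, [2]), (7, [1]), (7, [0]), (6, [])]]
    rk := [[1, 1, 1, 2], [3, 4, 3, 2], [6, 4, 6, 5], [6, 7, 8, 7], [9, 7, 6, 7], [9, 10, 8, 9], [11, 10, 11, 12], [13, 13, 13, 12]]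
    jst := [[2, 2, 2, 0], [6, 0, 6, 1], [0, 1, 0, 4], [1, 3, 0, 3], [5, 5, 1, 5], [5, 0, 1, 5], [4, 1, 4, 0], [6, 6, 6, 1]]
    vecs := [![0, 0, 0, 1], ![0, 1, 0, -1], ![1, -1, 1, 0], ![-1, 0, 1, 0], ![1, 0, -1, 0], ![-1, 1, -1, 0], ![0, -1, 0, 1], ![0, 0, 0, -1]] }

def Ls : List (Lvl 4) := [L1, L2, L3, L4]

set_option maxHeartbeats 0 in
theorem hA : CM.IsLiftable A := by
  unfold CoxeterMatrix.IsLiftable
  decide +kernel

set_option maxHeartbeats 0 in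
theorem hchk : chkAll CM A Ls = true := by decide +kernel

theorem card : Nat.card CM.Group = 192 := by
  rw [card_group CM A hA Ls hchk]
  decide +kernel

set_option maxHeartbeats 0 in
theorem cox : orderOf (((List.finRange 4).map CM.simple).prod) = 6 := by
  refine coxeter_order CM A hA Ls hchk 6 (by norm_num) ?_ ?_
  · decide +kernel
  · decide +kernel

end Cfsg.Agent.Helper17.CoxDataD4
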