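import Mathlib
import Cfsg.Agent.Helper17.Cox

/-!
# Generation of finite Coxeter groups by the Coxeter element and reflections (helper17)

A straight-line program of matrix products, checked in the faithful reflection representation
`rho` of `Cox.lean`, certifies that a subgroup containing given words contains all simple
reflections.
-/

set_option autoImplicit false

namespace Cfsg.Agent.Helper17.Cox

variable {n : ℕ}

section Gen

variable (M : CoxeterMatrix (Fin n)) (A : Fin n → Matrix (Fin n) (Fin n) ℤ) (hA : M.IsLiftable A)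

/-- matrix of a word -/
def evA (w : List (Fin n)) : Matrix (Fin n) (Fin n) ℤ := (w.map A).prod

theorem rho_ev_mat (w : List (Fin n)) : rho M A hA (ev M w) = evA A w := by
  unfold ev evA
  rw [map_list_prod, List.map_map]
  have : (⇑(rho M A hA) ∘ M.simple) = A := funext fun i => rho_simple M A hA i
  rw [this]

def chkInit (gens : List (List (Fin n))) (mats : List (Matrix (Fin n) (Fin n) ℤ)) : Bool :=
  (List.range gens.length).all fun k => decide (evA A (gens.getD k []) = mats.getD k 1)

def chkProg (n0 : ℕ) (mats : List (Matrix (Fin n) (Fin n) ℤ)) (prog : List (ℕ × ℕ)) : Bool :=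
  (List.range prog.length).all fun k =>
    decide ((prog.getD k (0, 0)).1 < n0 + k) && decide ((prog.getD k (0, 0)).2 < n0 + k) &&
    decide (mats.getD (prog.getD k (0, 0)).1 1 * mats.getD (prog.getD k (0, 0)).2 1 =
      mats.getD (n0 + k) 1)

def chkFinal (mats : List (Matrix (Fin n) (Fin n) ℤ)) (fin : List ℕ) : Bool :=
  (List.finRange n).all fun i => decide (mats.getD (fin.getD i.val 0) 1 = A i)

include hA in
theorem gen_top (Ls : List (Lvl n)) (h : chkAll M A Ls = true) (H : Subgroup M.Group)
    (gens : List (List (Fin n))) (hgens : ∀ w ∈ gens, ev M w ∈ H)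
    (mats : List (Matrix (Fin n) (Fin n) ℤ)) (prog : List (ℕ × ℕ)) (fin : List ℕ)
    (h0 : mats.length = gens.length + prog.length)
    (h1 : chkInit A gens mats = true) (h2 : chkProg gens.length mats prog = true)
    (h3 : chkFinal A mats fin = true) : H = ⊤ := by
  have hinj := rho_injective M A hA Ls h
  unfold chkInit at h1
  unfold chkProg at h2
  unfold chkFinal at h3
  simp only [List.all_eq_true, List.mem_range, List.mem_finRange, decide_eq_true_eq,
    Bool.and_eq_true, forall_const] at h1 h2 h3
  have key : ∀ k, k < gens.length + prog.length → ∃ x ∈ H, rho M A hA x = mats.getD k 1 := by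
    intro k
    induction k using Nat.strong_induction_on with
    | _ k ih =>
      intro hk
      by_cases hk0 : k < gens.length
      · refine ⟨ev M (gens.getD k []), hgens _ ?_, ?_⟩
        · rw [List.getD_eq_getElem _ _ hk0]
          exact List.getElem_mem hk0
        · rw [rho_ev_mat]
          exact h1 k hk0
      · obtain ⟨k', rfl⟩ : ∃ k', k = gens.length + k' := ⟨k - gens.length, by omega⟩
        have hk' : k' < prog.length := by omega
        obtain ⟨⟨hi, hj⟩, he⟩ := h2 k' hk'
        obtain ⟨x, hx, ex⟩ := ih _ hi (by omega)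
        obtain ⟨y, hy, ey⟩ := ih _ hj (by omega)
        exact ⟨x * y, H.mul_mem hx hy, by rw [map_mul, ex, ey, he]⟩
  have one_mem : ∀ k, ∃ x ∈ H, rho M A hA x = mats.getD k 1 := by
    intro k
    by_cases hk : k < gens.length + prog.length
    · exact key k hk
    · exact ⟨1, H.one_mem, by rw [map_one, List.getD_eq_default _ _ (by omega)]⟩
  rw [eq_top_iff, ← M.toCoxeterSystem.subgroup_closure_range_simple, Subgroup.closure_le]
  rintro _ ⟨i, rfl⟩
  rw [CoxeterMatrix.toCoxeterSystem_simple]
  obtain ⟨x, hx, ex⟩ := one_mem (fin.getD i.val 0)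
  have : x = M.simple i := hinj (by rw [ex, h3 i, rho_simple])
  rw [← this]
  exact hx

include hA in
/-- generation by the Coxeter element and one reflection -/
theorem gen_one (Ls : List (Lvl n)) (h : chkAll M A Ls = true) (w : List (Fin n)) (i : Fin n)
    (mats : List (Matrix (Fin n) (Fin n) ℤ)) (prog : List (ℕ × ℕ)) (fin : List ℕ)
    (h0 : mats.length = 2 + prog.length)
    (h1 : chkInit A [List.finRange n, w ++ i :: w.reverse] mats = true)
    (h2 : chkProg 2 mats prog = true) (h3 : chkFinal A mats fin = true) :
    ∃ T : Finset M.Group, T.card = 1 ∧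
      (∀ t ∈ T, ∃ (g : M.Group) (i : Fin n), t = g * M.simple i * g⁻¹) ∧
      Subgroup.closure (({((List.finRange n).map M.simple).prod} : Set M.Group) ∪ ↑T) = ⊤ := by
  refine ⟨{ev M (w ++ i :: w.reverse)}, Finset.card_singleton _, ?_, ?_⟩
  · intro t ht
    rw [Finset.mem_singleton] at ht
    refine ⟨ev M w, i, ?_⟩
    rw [ht, ev_append, ev_cons, ev_reverse, mul_assoc]
  · refine gen_top M A hA Ls h _ [List.finRange n, w ++ i :: w.reverse] ?_ mats prog fin h0 h1 h2 h3
    intro u hu
    simp only [List.mem_cons, List.not_mem_nil, or_false] at hu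
    rcases hu with rfl | rfl
    · exact Subgroup.subset_closure (Or.inl rfl)
    · exact Subgroup.subset_closure (Or.inr (by simp))

include hA in
/-- generation by the Coxeter element and two reflections -/
theorem gen_two (Ls : List (Lvl n)) (h : chkAll M A Ls = true) (w : List (Fin n)) (i : Fin n)
    (w' : List (Fin n)) (i' : Fin n)
    (mats : List (Matrix (Fin n) (Fin n) ℤ)) (prog : List (ℕ × ℕ)) (fin : List ℕ)
    (hne : evA A (w ++ i :: w.reverse) ≠ evA A (w' ++ i' :: w'.reverse))
    (h0 : mats.length = 3 + prog.length)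
    (h1 : chkInit A [List.finRange n, w ++ i :: w.reverse, w' ++ i' :: w'.reverse] mats = true)
    (h2 : chkProg 3 mats prog = true) (h3 : chkFinal A mats fin = true) :
    ∃ T : Finset M.Group, T.card = 2 ∧
      (∀ t ∈ T, ∃ (g : M.Group) (i : Fin n), t = g * M.simple i * g⁻¹) ∧
      Subgroup.closure (({((List.finRange n).map M.simple).prod} : Set M.Group) ∪ ↑T) = ⊤ := by
  have hne' : ev M (w ++ i :: w.reverse) ∉ ({ev M (w' ++ i' :: w'.reverse)} : Finset M.Group) := by
    rw [Finset.mem_singleton]
    intro e
    apply hne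
    rw [← rho_ev_mat M A hA, ← rho_ev_mat M A hA, e]
  refine ⟨Finset.cons _ _ hne', ?_, ?_, ?_⟩
  · rw [Finset.card_cons, Finset.card_singleton]
  · intro t ht
    rw [Finset.mem_cons, Finset.mem_singleton] at ht
    rcases ht with ht | ht
    · refine ⟨ev M w, i, ?_⟩
      rw [ht, ev_append, ev_cons, ev_reverse, mul_assoc]
    · refine ⟨ev M w', i', ?_⟩
      rw [ht, ev_append, ev_cons, ev_reverse, mul_assoc]
  · refine gen_top M A hA Ls h _ [List.finRange n, w ++ i :: w.reverse, w' ++ i' :: w'.reverse]
      ?_ mats prog fin h0 h1 h2 h3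
    intro u hu
    simp only [List.mem_cons, List.not_mem_nil, or_false] at hu
    rcases hu with rfl | rfl | rfl
    · exact Subgroup.subset_closure (Or.inl rfl)
    · exact Subgroup.subset_closure (Or.inr (by simp))
    · exact Subgroup.subset_closure (Or.inr (by simp))

end Gen

end Cfsg.Agent.Helper17.Cox
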