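import Mathlib
import Cfsg.Agent.Helper17.HexaGF4

/-!
# The hexacode: weights and monomial automorphisms (helper17)

First over the concrete field `GF4`, then transported to an arbitrary field with four elements.
-/

set_option autoImplicit false

namespace Cfsg.Agent.Helper17.Hexa

open Cfsg Cfsg.Agent.Helper17.Mono

/-! ### over `GF4` -/

theorem cyc_mem (ω : GF4) (hω : ω = .w ∨ ω = .v) (i j k : Fin 6) (hij : i ≠ j) (hik : i ≠ k)
    (hjk : j ≠ k) : Equiv.swap i j * Equiv.swap j k ∈ Kgrp (hexacode GF4 ω) := by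
  obtain ⟨h0, h1⟩ := cyc_data ω hω i j k hij hik hjk
  refine ⟨fun p => Units.mk0 (Wt ω i j k p) (h0 p), ?_⟩
  apply pres_of_span (hexa_eq ω)
  intro x hx
  have h2 : ∃ m, x = gv ω m := by
    simp only [Set.mem_insert_iff, Set.mem_singleton_iff] at hx
    rcases hx with rfl | rfl | rfl
    exacts [⟨0, rfl⟩, ⟨1, rfl⟩, ⟨2, rfl⟩]
  obtain ⟨m, rfl⟩ := h2
  rw [mem_hexa]
  exact h1 m

theorem vec_units (c : Fin 6 → GF4ˣ) :
    (![(c 0 : GF4), c 1, c 2, c 3, c 4, c 5] : Fin 6 → GF4) = fun p => (c p : GF4) := by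
  funext p
  fin_cases p <;> rfl

theorem swap_not_mem (ω : GF4) (hω : ω = .w ∨ ω = .v) :
    Equiv.swap (0 : Fin 6) 1 ∉ Kgrp (hexacode GF4 ω) := by
  rintro ⟨c, hc⟩
  have hne : ∀ p, (c p : GF4) ≠ 0 := fun p => Units.ne_zero _
  apply swap_data ω hω _ (hne 0) _ (hne 1) _ (hne 2) _ (hne 3) _ (hne 4) _ (hne 5)
  intro m
  have h1 := hc (gv ω m) (gv_mem ω m)
  rw [mem_hexa] at h1
  obtain ⟨a, b, c', h2⟩ := h1
  refine ⟨a, b, c', ?_⟩
  rw [h2, vec_units]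
  rfl

theorem alt_le_K (ω : GF4) (hω : ω = .w ∨ ω = .v) :
    alternatingGroup (Fin 6) ≤ Kgrp (hexacode GF4 ω) := by
  rw [← Equiv.Perm.closure_three_cycles_eq_alternating, Subgroup.closure_le]
  intro σ hσ
  have hσ' : σ.IsThreeCycle := hσ
  obtain ⟨a, ha⟩ := hσ'.isCycle.nonempty_support
  have h1 := hσ'.eq_swap_mul_swap_iff_mem_support.mpr ha
  have h2 := hσ'.nodup_iff_mem_support.mpr ha
  simp only [List.nodup_cons, List.mem_cons, List.not_mem_nil, or_false,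
    not_or, List.nodup_nil, and_true, not_false_eq_true] at h2
  have h3 := cyc_mem ω hω a (σ a) (σ (σ a)) h2.1.1 h2.1.2 h2.2
  rw [← h1] at h3
  exact h3

theorem K_eq_alt (ω : GF4) (hω : ω = .w ∨ ω = .v) :
    Kgrp (hexacode GF4 ω) = alternatingGroup (Fin 6) := by
  apply le_antisymm _ (alt_le_K ω hω)
  intro σ hσ
  rw [Equiv.Perm.mem_alternatingGroup]
  rcases Int.units_eq_one_or (Equiv.Perm.sign σ) with h | h
  · exact h
  · exfalso
    apply swap_not_mem ω hω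
    have h1 : Equiv.swap (0 : Fin 6) 1 * σ⁻¹ ∈ alternatingGroup (Fin 6) := by
      rw [Equiv.Perm.mem_alternatingGroup, Equiv.Perm.sign_mul,
        Equiv.Perm.sign_swap (by decide), Equiv.Perm.sign_inv, h]
      rfl
    have h2 := Subgroup.mul_mem _ (alt_le_K ω hω h1) hσ
    simpa using h2

theorem diag_const (ω : GF4) (hω : ω = .w ∨ ω = .v) (c : Fin 6 → GF4ˣ)
    (hc : ((1 : Equiv.Perm (Fin 6)), c) ∈ Pres (hexacode GF4 ω)) : ∀ i j, c i = c j := by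
  have hne : ∀ p, (c p : GF4) ≠ 0 := fun p => Units.ne_zero _
  obtain ⟨e1, e2, e3, e4, e5⟩ := diag_data ω hω _ (hne 0) _ (hne 1) _ (hne 2) _ (hne 3) _ (hne 4)
    _ (hne 5) (by
      intro m
      have h1 := hc (gv ω m) (gv_mem ω m)
      rw [mem_hexa] at h1
      obtain ⟨a, b, c', h2⟩ := h1
      refine ⟨a, b, c', ?_⟩
      rw [h2, vec_units]
      rfl)
  have h0 : ∀ i : Fin 6, c i = c 0 := by
    intro i
    apply Units.ext
    fin_cases i
    · rfl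
    · exact e1.symm
    · exact (e1.trans e2).symm
    · exact (e1.trans (e2.trans e3)).symm
    · exact (e1.trans (e2.trans (e3.trans e4))).symm
    · exact (e1.trans (e2.trans (e3.trans (e4.trans e5)))).symm
  intro i j
  rw [h0 i, h0 j]

theorem const_pres {K : Type*} [Field K] (C : Submodule K (Fin 6 → K)) (a : Kˣ) :
    ((1 : Equiv.Perm (Fin 6)), fun _ : Fin 6 => a) ∈ Pres C := by
  intro x hx
  have h1 : monomialMap (1 : Equiv.Perm (Fin 6)) (fun _ => a) x = (a : K) • x := by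
    funext p
    rfl
  show monomialMap (1 : Equiv.Perm (Fin 6)) (fun _ => a) x ∈ C
  rw [h1]
  exact Submodule.smul_mem _ _ hx

theorem card_diag (ω : GF4) (hω : ω = .w ∨ ω = .v) :
    Nat.card {c : Fin 6 → GF4ˣ // ((1 : Equiv.Perm (Fin 6)), c) ∈ Pres (hexacode GF4 ω)} = 3 := by
  have e : {c : Fin 6 → GF4ˣ // ((1 : Equiv.Perm (Fin 6)), c) ∈ Pres (hexacode GF4 ω)} ≃ GF4ˣ :=
    { toFun := fun c => c.1 0
      invFun := fun a => ⟨fun _ => a, const_pres _ a⟩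
      left_inv := by
        rintro ⟨c, hc⟩
        apply Subtype.ext
        funext p
        exact diag_const ω hω c hc 0 p
      right_inv := fun a => rfl }
  rw [Nat.card_congr e, Nat.card_units, Nat.card_eq_fintype_card, card_GF4]

theorem gf4_main (ω : GF4) (hω : ω ^ 2 + ω + 1 = 0) :
    Nat.card (Pres (hexacode GF4 ω)) = 1080 ∧
    (∀ c : Fin 6 → GF4ˣ, ((1 : Equiv.Perm (Fin 6)), c) ∈ Pres (hexacode GF4 ω) →
      ∀ i j, c i = c j) ∧
    Kgrp (hexacode GF4 ω) = alternatingGroup (Fin 6) := by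
  have hω' := root_cases ω hω
  refine ⟨?_, diag_const ω hω', K_eq_alt ω hω'⟩
  rw [card_pres, K_eq_alt ω hω', card_diag ω hω', nat_card_alternatingGroup, Nat.card_eq_fintype_card,
    Fintype.card_fin]
  rfl

/-! ### weights over `GF4` -/

/-- weight -/
def wtG (x : Fin 6 → GF4) : ℕ := (Finset.univ.filter fun i => x i ≠ 0).card

/-- three coordinates -/
abbrev T3 : Type := GF4 × GF4 × GF4

def enc3 (ω : GF4) (t : T3) : Fin 6 → GF4 := t.1 • gv ω 0 + t.2.1 • gv ω 1 + t.2.2 • gv ω 2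

theorem mem_hexa' (ω : GF4) (x : Fin 6 → GF4) : x ∈ hexacode GF4 ω ↔ ∃ t : T3, enc3 ω t = x := by
  rw [mem_hexa]
  constructor
  · rintro ⟨a, b, c, h⟩
    exact ⟨(a, b, c), h⟩
  · rintro ⟨t, h⟩
    exact ⟨t.1, t.2.1, t.2.2, h⟩

set_option maxHeartbeats 0 in
theorem enc3_inj_data : ∀ ω : GF4, (ω = .w ∨ ω = .v) → ∀ t t' : T3, enc3 ω t = enc3 ω t' → t = t' := by
  decide +kernel

set_option maxHeartbeats 0 in
theorem wt_data : ∀ ω : GF4, (ω = .w ∨ ω = .v) →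
    (∀ t : T3, t = 0 ∨ wtG (enc3 ω t) = 4 ∨ wtG (enc3 ω t) = 6) ∧
    (Finset.univ.filter fun t : T3 => wtG (enc3 ω t) = 4).card = 45 ∧
    (Finset.univ.filter fun t : T3 => wtG (enc3 ω t) = 6).card = 18 := by
  decide +kernel

theorem enc3_zero (ω : GF4) : enc3 ω 0 = 0 := by
  simp [enc3]

theorem gf4_weights (ω : GF4) (hω : ω ^ 2 + ω + 1 = 0) :
    Nat.card (hexacode GF4 ω) = 64 ∧
    (∀ x ∈ hexacode GF4 ω, x ≠ 0 → wtG x = 4 ∨ wtG x = 6) ∧
    {x : Fin 6 → GF4 | x ∈ hexacode GF4 ω ∧ wtG x = 4}.ncard = 45 ∧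
    {x : Fin 6 → GF4 | x ∈ hexacode GF4 ω ∧ wtG x = 6}.ncard = 18 := by
  have hω' := root_cases ω hω
  have hinj : Function.Injective (enc3 ω) := fun t t' h => enc3_inj_data ω hω' t t' h
  obtain ⟨d1, d2, d3⟩ := wt_data ω hω'
  have hcount : ∀ k : ℕ, {x : Fin 6 → GF4 | x ∈ hexacode GF4 ω ∧ wtG x = k}.ncard =
      (Finset.univ.filter fun t : T3 => wtG (enc3 ω t) = k).card := by
    intro k
    have h : {x : Fin 6 → GF4 | x ∈ hexacode GF4 ω ∧ wtG x = k} =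
        enc3 ω '' ((Finset.univ.filter fun t : T3 => wtG (enc3 ω t) = k) : Finset T3) := by
      ext x
      simp only [Set.mem_ofPred_eq, Set.mem_image, Finset.coe_filter, Finset.mem_univ, true_and]
      constructor
      · rintro ⟨hx, hk⟩
        obtain ⟨t, rfl⟩ := (mem_hexa' ω x).mp hx
        exact ⟨t, hk, rfl⟩
      · rintro ⟨t, ht, rfl⟩
        exact ⟨(mem_hexa' ω _).mpr ⟨t, rfl⟩, ht⟩
    rw [h, Set.ncard_image_of_injective _ hinj, Set.ncard_coe_finset]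
  refine ⟨?_, ?_, ?_, ?_⟩
  · have h : (hexacode GF4 ω : Set (Fin 6 → GF4)) = Set.range (enc3 ω) := by
      ext x
      exact mem_hexa' ω x
    have h2 : Nat.card (hexacode GF4 ω) = Nat.card (Set.range (enc3 ω)) := by
      rw [← h]; rfl
    rw [h2, Nat.card_range_of_injective hinj]
    simp [Nat.card_eq_fintype_card, card_GF4]
  · intro x hx hne
    obtain ⟨t, rfl⟩ := (mem_hexa' ω x).mp hx
    rcases d1 t with h | h
    · exact absurd (by rw [h, enc3_zero]) hne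
    · exact h
  · rw [hcount, d2]
  · rw [hcount, d3]

/-! ### transport to an arbitrary field with four elements -/

section Transport

variable {F : Type*} [Field F] (ψ : F ≃+* GF4)

/-- apply the isomorphism to every coordinate -/
def tr (x : Fin 6 → F) : Fin 6 → GF4 := fun i => ψ (x i)

theorem tr_injective : Function.Injective (tr ψ) := fun _ _ h =>
  funext fun i => ψ.injective (congrFun h i)

theorem tr_surj (y : Fin 6 → GF4) : tr ψ (fun i => ψ.symm (y i)) = y := by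
  funext i
  simp [tr]

theorem tr_comb (a b c : F) (x y z : Fin 6 → F) :
    tr ψ (a • x + b • y + c • z) = ψ a • tr ψ x + ψ b • tr ψ y + ψ c • tr ψ z := by
  funext i
  simp [tr]

theorem tr_gens (ω : F) :
    tr ψ ![ω, ω ^ 2, ω ^ 2, ω, ω ^ 2, ω] = gv (ψ ω) 0 ∧
    tr ψ ![ω ^ 2, ω, ω, ω ^ 2, ω ^ 2, ω] = gv (ψ ω) 1 ∧
    tr ψ ![ω ^ 2, ω, ω ^ 2, ω, ω, ω ^ 2] = gv (ψ ω) 2 := by
  refine ⟨?_, ?_, ?_⟩ <;> (funext i; fin_cases i <;> simp [tr, gv])

theorem mem_tr (ω : F) (x : Fin 6 → F) : x ∈ hexacode F ω ↔ tr ψ x ∈ hexacode GF4 (ψ ω) := by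
  obtain ⟨g0, g1, g2⟩ := tr_gens ψ ω
  rw [mem_hexa]
  have hL : x ∈ hexacode F ω ↔ ∃ a b c : F, a • ![ω, ω ^ 2, ω ^ 2, ω, ω ^ 2, ω] +
      b • ![ω ^ 2, ω, ω, ω ^ 2, ω ^ 2, ω] + c • ![ω ^ 2, ω, ω ^ 2, ω, ω, ω ^ 2] = x :=
    Submodule.mem_span_triple
  rw [hL]
  constructor
  · rintro ⟨a, b, c, rfl⟩
    refine ⟨ψ a, ψ b, ψ c, ?_⟩
    rw [tr_comb, g0, g1, g2]
  · rintro ⟨a, b, c, h⟩
    refine ⟨ψ.symm a, ψ.symm b, ψ.symm c, ?_⟩
    apply tr_injective ψ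
    rw [tr_comb, g0, g1, g2]
    simp only [RingEquiv.apply_symm_apply]
    exact h

/-- the isomorphism on units -/
def ue : Fˣ ≃ GF4ˣ := (Units.mapEquiv (ψ : F ≃* GF4)).toEquiv

theorem ue_val (u : Fˣ) : ((ue ψ u : GF4ˣ) : GF4) = ψ (u : F) := rfl

theorem tr_mm (σ : Equiv.Perm (Fin 6)) (c : Fin 6 → Fˣ) (x : Fin 6 → F) :
    tr ψ (monomialMap σ c x) = monomialMap σ (fun i => ue ψ (c i)) (tr ψ x) := by
  funext i
  simp only [tr, mm_apply, map_mul, ue_val]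

/-- the isomorphism on monomial data -/
def pe : Equiv.Perm (Fin 6) × (Fin 6 → Fˣ) ≃ Equiv.Perm (Fin 6) × (Fin 6 → GF4ˣ) :=
  Equiv.prodCongr (Equiv.refl _) (Equiv.piCongrRight fun _ => ue ψ)

theorem pe_apply (f : Equiv.Perm (Fin 6) × (Fin 6 → Fˣ)) :
    pe ψ f = (f.1, fun i => ue ψ (f.2 i)) := rfl

theorem pres_tr (ω : F) (f : Equiv.Perm (Fin 6) × (Fin 6 → Fˣ)) :
    f ∈ Pres (hexacode F ω) ↔ pe ψ f ∈ Pres (hexacode GF4 (ψ ω)) := by
  rw [pe_apply]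
  constructor
  · intro hf y hy
    have hx : (fun i => ψ.symm (y i)) ∈ hexacode F ω := by
      rw [mem_tr ψ, tr_surj]; exact hy
    have h1 := hf _ hx
    rw [mem_tr ψ, tr_mm, tr_surj] at h1
    exact h1
  · intro hf x hx
    show monomialMap f.1 f.2 x ∈ hexacode F ω
    rw [mem_tr ψ, tr_mm]
    exact hf _ ((mem_tr ψ ω x).mp hx)

theorem wt_tr [DecidableEq F] (x : Fin 6 → F) :
    (Finset.univ.filter fun i => x i ≠ 0).card = wtG (tr ψ x) := by
  unfold wtG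
  congr 1
  ext i
  simp [tr]

/-- the isomorphism on words -/
def trE : (Fin 6 → F) ≃ (Fin 6 → GF4) := Equiv.piCongrRight fun _ => ψ.toEquiv

theorem trE_apply (x : Fin 6 → F) : trE ψ x = tr ψ x := rfl

end Transport

theorem hexa_aut (F : Type*) [Field F] [Fintype F] (hF : Fintype.card F = 4) (ω : F)
    (hω : ω ^ 2 + ω + 1 = 0) :
    Nat.card {f : Equiv.Perm (Fin 6) × (Fin 6 → Fˣ) //
      (∀ x ∈ hexacode F ω, monomialMap f.1 f.2 x ∈ hexacode F ω)} = 1080 ∧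
    (∀ c : Fin 6 → Fˣ, (∀ x ∈ hexacode F ω, monomialMap 1 c x ∈ hexacode F ω) → ∀ i j, c i = c j) ∧
    {σ : Equiv.Perm (Fin 6) | ∃ c : Fin 6 → Fˣ,
      (∀ x ∈ hexacode F ω, monomialMap σ c x ∈ hexacode F ω)} =
      (alternatingGroup (Fin 6) : Set (Equiv.Perm (Fin 6))) := by
  classical
  obtain ⟨ψ⟩ : Nonempty (F ≃+* GF4) := ⟨FiniteField.ringEquivOfCardEq (hF.trans card_GF4.symm)⟩
  have hω' : (ψ ω) ^ 2 + ψ ω + 1 = 0 := by
    have h := congrArg ψ hω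
    simpa using h
  obtain ⟨m1, m2, m3⟩ := gf4_main (ψ ω) hω'
  refine ⟨?_, ?_, ?_⟩
  · have e : Pres (hexacode F ω) ≃ Pres (hexacode GF4 (ψ ω)) :=
      Equiv.subtypeEquiv (pe ψ) (pres_tr ψ ω)
    exact (Nat.card_congr e).trans m1
  · intro c hc i j
    have h1 : pe ψ (1, c) ∈ Pres (hexacode GF4 (ψ ω)) := (pres_tr ψ ω (1, c)).mp hc
    exact (ue ψ).injective (m2 _ h1 i j)
  · ext σ
    constructor
    · rintro ⟨c, hc⟩
      have h1 : pe ψ (σ, c) ∈ Pres (hexacode GF4 (ψ ω)) := (pres_tr ψ ω (σ, c)).mp hc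
      have h2 : σ ∈ Kgrp (hexacode GF4 (ψ ω)) := ⟨_, h1⟩
      rw [m3] at h2
      exact h2
    · intro hσ
      have h2 : σ ∈ Kgrp (hexacode GF4 (ψ ω)) := by
        rw [m3]; exact hσ
      obtain ⟨c', hc'⟩ := h2
      refine ⟨fun i => (ue ψ).symm (c' i), ?_⟩
      have h3 : pe ψ (σ, fun i => (ue ψ).symm (c' i)) = (σ, c') := by
        rw [pe_apply]
        simp
      have h4 : ((σ, fun i => (ue ψ).symm (c' i)) : Equiv.Perm (Fin 6) × (Fin 6 → Fˣ)) ∈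
          Pres (hexacode F ω) := by
        rw [pres_tr ψ ω, h3]; exact hc'
      exact h4

theorem hexa_weights (F : Type*) [Field F] [Fintype F] [DecidableEq F]
    (hF : Fintype.card F = 4) (ω : F) (hω : ω ^ 2 + ω + 1 = 0) :
    Nat.card ↥(hexacode F ω) = 64 ∧
    (∀ x ∈ hexacode F ω, x ≠ 0 → (Finset.univ.filter fun i => x i ≠ 0).card = 4 ∨
      (Finset.univ.filter fun i => x i ≠ 0).card = 6) ∧
    {x : Fin 6 → F | x ∈ hexacode F ω ∧ (Finset.univ.filter fun i => x i ≠ 0).card = 4}.ncard = 45 ∧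
    {x : Fin 6 → F | x ∈ hexacode F ω ∧ (Finset.univ.filter fun i => x i ≠ 0).card = 6}.ncard = 18 := by
  obtain ⟨ψ⟩ : Nonempty (F ≃+* GF4) := ⟨FiniteField.ringEquivOfCardEq (hF.trans card_GF4.symm)⟩
  have hω' : (ψ ω) ^ 2 + ψ ω + 1 = 0 := by
    have h := congrArg ψ hω
    simpa using h
  obtain ⟨w1, w2, w3, w4⟩ := gf4_weights (ψ ω) hω'
  have hcount : ∀ k : ℕ, {x : Fin 6 → F | x ∈ hexacode F ω ∧
      (Finset.univ.filter fun i => x i ≠ 0).card = k}.ncard =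
      {y : Fin 6 → GF4 | y ∈ hexacode GF4 (ψ ω) ∧ wtG y = k}.ncard := by
    intro k
    rw [← Set.ncard_image_of_injective _ (tr_injective ψ)]
    congr 1
    ext y
    simp only [Set.mem_image, Set.mem_ofPred_eq]
    constructor
    · rintro ⟨x, ⟨hx, hk⟩, rfl⟩
      exact ⟨(mem_tr ψ ω x).mp hx, by rw [← wt_tr]; exact hk⟩
    · rintro ⟨hy, hk⟩
      refine ⟨fun i => ψ.symm (y i), ⟨?_, ?_⟩, tr_surj ψ y⟩
      · rw [mem_tr ψ, tr_surj]; exact hy
      · rw [wt_tr ψ, tr_surj]; exact hk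
  refine ⟨?_, ?_, ?_, ?_⟩
  · have e : hexacode F ω ≃ hexacode GF4 (ψ ω) := Equiv.subtypeEquiv (trE ψ) (mem_tr ψ ω)
    exact (Nat.card_congr e).trans w1
  · intro x hx hne
    rw [wt_tr ψ]
    apply w2 _ ((mem_tr ψ ω x).mp hx)
    intro h0
    apply hne
    apply tr_injective ψ
    rw [h0]
    funext i
    simp [tr]
  · rw [hcount]; exact w3
  · rw [hcount]; exact w4

end Cfsg.Agent.Helper17.Hexa
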