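import Mathlib
import Cfsg.Prelude.Def_SporadicCombinatorics

/-!
# Monomial maps preserving a code (helper17)

The pairs `(σ, c)` whose monomial map preserves a finite submodule `C` form a group; the
permutation parts form a subgroup `Kgrp C` and every fibre over it is a coset of the diagonal
part.  Hence `Nat.card (Pres C) = Nat.card (Kgrp C) * Nat.card (diagonal part)`.
-/

set_option autoImplicit false

namespace Cfsg.Agent.Helper17.Mono

open Cfsg

variable {α F : Type*} [Field F]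

theorem mm_apply (σ : Equiv.Perm α) (c : α → Fˣ) (x : α → F) (i : α) :
    monomialMap σ c x i = (c i : F) * x (σ.symm i) := rfl

theorem mm_add (σ : Equiv.Perm α) (c : α → Fˣ) (x y : α → F) :
    monomialMap σ c (x + y) = monomialMap σ c x + monomialMap σ c y := by
  funext i
  simp [mm_apply, mul_add]

theorem mm_smul (σ : Equiv.Perm α) (c : α → Fˣ) (a : F) (x : α → F) :
    monomialMap σ c (a • x) = a • monomialMap σ c x := by
  funext i
  simp [mm_apply, mul_left_comm]

/-- the monomial map as a linear map -/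
def mmLin (σ : Equiv.Perm α) (c : α → Fˣ) : (α → F) →ₗ[F] (α → F) where
  toFun := monomialMap σ c
  map_add' := mm_add σ c
  map_smul' := mm_smul σ c

theorem mm_comp (σ τ : Equiv.Perm α) (c d : α → Fˣ) (x : α → F) :
    monomialMap σ c (monomialMap τ d x) =
      monomialMap (σ * τ) (fun i => c i * d (σ.symm i)) x := by
  funext i
  simp only [mm_apply, Units.val_mul]
  rw [mul_assoc]
  rfl

theorem mm_one (x : α → F) : monomialMap (1 : Equiv.Perm α) (fun _ => (1 : Fˣ)) x = x := by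
  funext i
  show ((1 : Fˣ) : F) * x i = x i
  simp

theorem mm_injective (σ : Equiv.Perm α) (c : α → Fˣ) :
    Function.Injective (monomialMap (F := F) σ c) := by
  intro x y h
  funext i
  have h1 := congrFun h (σ i)
  simp only [mm_apply, Equiv.symm_apply_apply] at h1
  exact mul_left_cancel₀ (Units.ne_zero _) h1

/-- the monomial maps preserving a submodule -/
def Pres (C : Submodule F (α → F)) : Set (Equiv.Perm α × (α → Fˣ)) :=
  {f | ∀ x ∈ C, monomialMap f.1 f.2 x ∈ C}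

variable {C : Submodule F (α → F)}

theorem pres_iff (f : Equiv.Perm α × (α → Fˣ)) :
    f ∈ Pres C ↔ ∀ x ∈ C, monomialMap f.1 f.2 x ∈ C := Iff.rfl

theorem pres_one : ((1 : Equiv.Perm α), fun _ : α => (1 : Fˣ)) ∈ Pres C := fun x hx => by
  show monomialMap 1 (fun _ => 1) x ∈ C
  rw [mm_one]; exact hx

theorem pres_mul {f g : Equiv.Perm α × (α → Fˣ)} (hf : f ∈ Pres C) (hg : g ∈ Pres C) :
    (f.1 * g.1, fun i => f.2 i * g.2 (f.1.symm i)) ∈ Pres C := fun x hx => by
  show monomialMap (f.1 * g.1) (fun i => f.2 i * g.2 (f.1.symm i)) x ∈ C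
  rw [← mm_comp]; exact hf _ (hg x hx)

theorem pres_surj [Finite C] {f : Equiv.Perm α × (α → Fˣ)} (hf : f ∈ Pres C) :
    ∀ y ∈ C, ∃ x ∈ C, monomialMap f.1 f.2 x = y := by
  intro y hy
  let φ : C → C := fun x => ⟨monomialMap f.1 f.2 x.1, hf x.1 x.2⟩
  have hinj : Function.Injective φ := fun a b h =>
    Subtype.ext (mm_injective _ _ (congrArg Subtype.val h))
  obtain ⟨x, hx⟩ := (Finite.injective_iff_surjective.mp hinj) ⟨y, hy⟩
  exact ⟨x.1, x.2, congrArg Subtype.val hx⟩

theorem pres_inv [Finite C] {f : Equiv.Perm α × (α → Fˣ)} (hf : f ∈ Pres C) :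
    (f.1⁻¹, fun i => (f.2 (f.1 i))⁻¹) ∈ Pres C := by
  intro y hy
  obtain ⟨x, hx, rfl⟩ := pres_surj hf y hy
  have h : monomialMap f.1⁻¹ (fun i => (f.2 (f.1 i))⁻¹) (monomialMap f.1 f.2 x) = x := by
    funext i
    simp only [mm_apply]
    have e1 : (f.1⁻¹).symm i = f.1 i := rfl
    rw [e1, Equiv.symm_apply_apply, ← mul_assoc, ← Units.val_mul, inv_mul_cancel, Units.val_one,
      one_mul]
  show monomialMap f.1⁻¹ (fun i => (f.2 (f.1 i))⁻¹) (monomialMap f.1 f.2 x) ∈ C
  rw [h]; exact hx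

/-- the permutation parts -/
def Kgrp (C : Submodule F (α → F)) [Finite C] : Subgroup (Equiv.Perm α) where
  carrier := {σ | ∃ c, (σ, c) ∈ Pres C}
  mul_mem' := by
    rintro σ τ ⟨c, hc⟩ ⟨d, hd⟩
    exact ⟨_, pres_mul hc hd⟩
  one_mem' := ⟨_, pres_one⟩
  inv_mem' := by
    rintro σ ⟨c, hc⟩
    exact ⟨_, pres_inv hc⟩

theorem mem_Kgrp [Finite C] (σ : Equiv.Perm α) : σ ∈ Kgrp C ↔ ∃ c, (σ, c) ∈ Pres C := Iff.rfl

theorem pres_div [Finite C] {σ : Equiv.Perm α} {c c' : α → Fˣ} (hc : (σ, c) ∈ Pres C)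
    (hc' : (σ, c') ∈ Pres C) : ((1 : Equiv.Perm α), fun i => c' i * (c i)⁻¹) ∈ Pres C := by
  have h := pres_mul hc' (pres_inv hc)
  simpa using h

theorem pres_diag_mul {σ : Equiv.Perm α} {c d : α → Fˣ} (hd : ((1 : Equiv.Perm α), d) ∈ Pres C)
    (hc : (σ, c) ∈ Pres C) : (σ, fun i => d i * c i) ∈ Pres C := by
  have h := pres_mul hd hc
  have e : ((1 : Equiv.Perm α) * σ, fun i => d i * c ((1 : Equiv.Perm α).symm i)) =
      (σ, fun i => d i * c i) := Prod.ext (one_mul σ) rfl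
  rw [← e]
  exact h

/-- the number of monomial automorphisms -/
theorem card_pres [Finite C] :
    Nat.card (Pres C) =
      Nat.card (Kgrp C) * Nat.card {c : α → Fˣ // ((1 : Equiv.Perm α), c) ∈ Pres C} := by
  classical
  rw [← Nat.card_prod]
  refine Nat.card_congr ?_
  refine
    { toFun := fun f => (⟨f.1.1, ⟨f.1.2, f.2⟩⟩,
        ⟨fun i => f.1.2 i * ((Classical.choose (⟨f.1.2, f.2⟩ : f.1.1 ∈ Kgrp C)) i)⁻¹,
          pres_div (Classical.choose_spec (⟨f.1.2, f.2⟩ : f.1.1 ∈ Kgrp C)) f.2⟩)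
      invFun := fun p => ⟨(p.1.1, fun i => p.2.1 i * (Classical.choose p.1.2) i),
        pres_diag_mul p.2.2 (Classical.choose_spec p.1.2)⟩
      left_inv := ?_
      right_inv := ?_ }
  · rintro ⟨⟨σ, c⟩, hf⟩
    apply Subtype.ext
    refine Prod.ext rfl ?_
    funext i
    simp
  · rintro ⟨⟨σ, hσ⟩, ⟨d, hd⟩⟩
    refine Prod.ext rfl ?_
    apply Subtype.ext
    funext i
    simp

theorem pres_of_span {S : Set (α → F)} (hC : C = Submodule.span F S)
    {f : Equiv.Perm α × (α → Fˣ)} (h : ∀ x ∈ S, monomialMap f.1 f.2 x ∈ C) : f ∈ Pres C := by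
  have h1 : Submodule.span F S ≤ C.comap (mmLin f.1 f.2) :=
    Submodule.span_le.mpr fun x hx => h x hx
  intro x hx
  rw [hC] at hx
  exact h1 hx

end Cfsg.Agent.Helper17.Mono
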