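import Mathlib

/-!
# Certified regular subgroups of `GL(2, ZMod q)` (helper17)

A finitely generated subgroup `H` of `GL(2, ZMod q)` that acts regularly on the non-zero vectors
is verified from a table: for every non-zero first column `(x, y)` the table gives the second
column of the unique element of `H` with that first column, together with a depth.
All computations are done with natural numbers, so that the kernel evaluates them quickly.
-/

set_option autoImplicit false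

namespace Cfsg.Agent.Helper17.RegGL2

/-- `(a, b, c, d)` stands for the matrix `!![a, b; c, d]`. -/
abbrev M4 := ℕ × ℕ × ℕ × ℕ

def mmul (q : ℕ) (m n : M4) : M4 :=
  ((m.1 * n.1 + m.2.1 * n.2.2.1) % q, (m.1 * n.2.1 + m.2.1 * n.2.2.2) % q,
   (m.2.2.1 * n.1 + m.2.2.2 * n.2.2.1) % q, (m.2.2.1 * n.2.1 + m.2.2.2 * n.2.2.2) % q)

def toMat (q : ℕ) (m : M4) : Matrix (Fin 2) (Fin 2) (ZMod q) :=
  !![(m.1 : ZMod q), (m.2.1 : ZMod q); (m.2.2.1 : ZMod q), (m.2.2.2 : ZMod q)]

def fromMat {q : ℕ} (M : Matrix (Fin 2) (Fin 2) (ZMod q)) : M4 :=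
  ((M 0 0).val, (M 0 1).val, (M 1 0).val, (M 1 1).val)

def ent (tab : List (List M4)) (x y : ℕ) : M4 := (tab.getD x []).getD y (0, 0, 0, 0)

def matOf (tab : List (List M4)) (x y : ℕ) : M4 := (x, (ent tab x y).1, y, (ent tab x y).2.1)

def inS (tab : List (List M4)) (m : M4) : Bool :=
  (m.1 != 0 || m.2.2.1 != 0) &&
    ((ent tab m.1 m.2.2.1).1 == m.2.1 && (ent tab m.1 m.2.2.1).2.1 == m.2.2.2)

def chkA (q : ℕ) (gs : List M4) (tab : List (List M4)) : Bool :=
  (List.range q).all fun x => (List.range q).all fun y =>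
    (x == 0 && y == 0) || gs.all fun g => inS tab (mmul q g (matOf tab x y))

def chkB1 (tab : List (List M4)) (d : ℕ) (m : M4) : Bool :=
  inS tab m && decide ((ent tab m.1 m.2.2.1).2.2.2 < d)

def chkB (q : ℕ) (gp : List (M4 × M4)) (tab : List (List M4)) : Bool :=
  (List.range q).all fun x => (List.range q).all fun y =>
    (x == 0 && y == 0) || (x == 1 && y == 0) ||
      gp.any fun p => chkB1 tab (ent tab x y).2.2.2 (mmul q p.2 (matOf tab x y))

def chkC (q : ℕ) (gp : List (M4 × M4)) : Bool :=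
  gp.all fun p => mmul q p.1 p.2 == (1, 0, 0, 1)

theorem toMat_mmul (q : ℕ) (m n : M4) : toMat q (mmul q m n) = toMat q m * toMat q n := by
  simp only [toMat, mmul, Matrix.mul_fin_two, ZMod.natCast_mod]
  push_cast
  rfl

theorem toMat_one (q : ℕ) : toMat q (1, 0, 0, 1) = 1 := by
  simp [toMat, Matrix.one_fin_two]

theorem toMat_fromMat {q : ℕ} [NeZero q] (M : Matrix (Fin 2) (Fin 2) (ZMod q)) :
    toMat q (fromMat M) = M := by
  ext i j
  fin_cases i <;> fin_cases j <;> simp [toMat, fromMat]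

theorem fromMat_toMat {q : ℕ} [NeZero q] (m : M4)
    (h : m.1 < q ∧ m.2.1 < q ∧ m.2.2.1 < q ∧ m.2.2.2 < q) : fromMat (toMat q m) = m := by
  obtain ⟨a, b, c, d⟩ := m
  obtain ⟨h1, h2, h3, h4⟩ := h
  simp only at h1 h2 h3 h4
  simp [fromMat, toMat, ZMod.val_natCast, Nat.mod_eq_of_lt, h1, h2, h3, h4]

theorem mmul_lt {q : ℕ} [NeZero q] (m n : M4) :
    (mmul q m n).1 < q ∧ (mmul q m n).2.1 < q ∧ (mmul q m n).2.2.1 < q ∧ (mmul q m n).2.2.2 < q :=
  ⟨Nat.mod_lt _ (NeZero.pos q), Nat.mod_lt _ (NeZero.pos q), Nat.mod_lt _ (NeZero.pos q),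
    Nat.mod_lt _ (NeZero.pos q)⟩

theorem fromMat_mul {q : ℕ} [NeZero q] (g : M4) (M : Matrix (Fin 2) (Fin 2) (ZMod q)) :
    fromMat (toMat q g * M) = mmul q g (fromMat M) := by
  conv_lhs => rw [← toMat_fromMat M, ← toMat_mmul]
  exact fromMat_toMat _ (mmul_lt _ _)

theorem inS_spec (tab : List (List M4)) (m : M4) :
    inS tab m = true ↔ (m.1 ≠ 0 ∨ m.2.2.1 ≠ 0) ∧ (ent tab m.1 m.2.2.1).1 = m.2.1 ∧
      (ent tab m.1 m.2.2.1).2.1 = m.2.2.2 := by
  simp [inS]

theorem inS_eq (tab : List (List M4)) (m : M4) (h : inS tab m = true) :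
    m = matOf tab m.1 m.2.2.1 := by
  obtain ⟨-, h1, h2⟩ := (inS_spec tab m).mp h
  obtain ⟨a, b, c, d⟩ := m
  simp only at h1 h2
  simp [matOf, h1, h2]

theorem chkA_spec (q : ℕ) (gs : List M4) (tab : List (List M4)) (h : chkA q gs tab = true)
    (x y : ℕ) (hx : x < q) (hy : y < q) (hxy : x ≠ 0 ∨ y ≠ 0) (g : M4) (hg : g ∈ gs) :
    inS tab (mmul q g (matOf tab x y)) = true := by
  unfold chkA at h
  rw [List.all_eq_true] at h
  have h1 := h x (List.mem_range.mpr hx)
  rw [List.all_eq_true] at h1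
  have h2 := h1 y (List.mem_range.mpr hy)
  simp only [Bool.or_eq_true, Bool.and_eq_true, beq_iff_eq, List.all_eq_true] at h2
  rcases h2 with ⟨rfl, rfl⟩ | h2
  · simp at hxy
  · exact h2 g hg

theorem chkB_spec (q : ℕ) (gp : List (M4 × M4)) (tab : List (List M4)) (h : chkB q gp tab = true)
    (x y : ℕ) (hx : x < q) (hy : y < q) (hxy : x ≠ 0 ∨ y ≠ 0) :
    (x = 1 ∧ y = 0) ∨ ∃ p ∈ gp, inS tab (mmul q p.2 (matOf tab x y)) = true ∧
      (ent tab (mmul q p.2 (matOf tab x y)).1 (mmul q p.2 (matOf tab x y)).2.2.1).2.2.2 <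
        (ent tab x y).2.2.2 := by
  unfold chkB at h
  rw [List.all_eq_true] at h
  have h1 := h x (List.mem_range.mpr hx)
  rw [List.all_eq_true] at h1
  have h2 := h1 y (List.mem_range.mpr hy)
  simp only [Bool.or_eq_true, Bool.and_eq_true, beq_iff_eq, List.any_eq_true, chkB1,
    decide_eq_true_eq] at h2
  rcases h2 with (⟨rfl, rfl⟩ | h2) | h2
  · simp at hxy
  · exact Or.inl h2
  · exact Or.inr h2

/-- membership in the table set -/
def Sset {q : ℕ} (tab : List (List M4)) (M : Matrix (Fin 2) (Fin 2) (ZMod q)) : Prop :=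
  inS tab (fromMat M) = true

theorem Sset_mul {q : ℕ} [NeZero q] (gs : List M4) (tab : List (List M4))
    (hA : chkA q gs tab = true) (M : Matrix (Fin 2) (Fin 2) (ZMod q)) (hM : Sset tab M)
    (g : M4) (hg : g ∈ gs) : Sset tab (toMat q g * M) := by
  unfold Sset at hM ⊢
  rw [fromMat_mul]
  have e := inS_eq tab _ hM
  have hnz := ((inS_spec tab _).mp hM).1
  rw [e]
  exact chkA_spec q gs tab hA _ _ (ZMod.val_lt _) (ZMod.val_lt _) hnz g hg

theorem Sset_ext {q : ℕ} [NeZero q] (tab : List (List M4))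
    (M M' : Matrix (Fin 2) (Fin 2) (ZMod q)) (hM : Sset tab M) (hM' : Sset tab M')
    (h0 : M 0 0 = M' 0 0) (h1 : M 1 0 = M' 1 0) : M = M' := by
  obtain ⟨-, a1, a2⟩ := (inS_spec tab _).mp hM
  obtain ⟨-, b1, b2⟩ := (inS_spec tab _).mp hM'
  simp only [fromMat] at a1 a2 b1 b2
  rw [← h0, ← h1] at b1 b2
  have e1 : M 0 1 = M' 0 1 := ZMod.val_injective q (a1.symm.trans b1)
  have e2 : M 1 1 = M' 1 1 := ZMod.val_injective q (a2.symm.trans b2)
  ext i j
  fin_cases i <;> fin_cases j <;> assumption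

theorem mulVec_e1 {q : ℕ} (M : Matrix (Fin 2) (Fin 2) (ZMod q)) :
    Matrix.mulVec M ![1, 0] = ![M 0 0, M 1 0] := by
  ext i
  fin_cases i <;> simp [Matrix.mulVec, dotProduct, Fin.sum_univ_two]

theorem card_nonzero (q : ℕ) [NeZero q] :
    Nat.card {v : Fin 2 → ZMod q // v ≠ 0} = q ^ 2 - 1 := by
  have h1 : Nat.card {v : Fin 2 → ZMod q // v ≠ 0} = ({0}ᶜ : Set (Fin 2 → ZMod q)).ncard := by
    rw [← Nat.card_coe_set_eq]
    rfl
  rw [h1, Set.ncard_compl, Set.ncard_singleton, Nat.card_fun, Nat.card_zmod, Nat.card_fin]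

theorem main {q : ℕ} [NeZero q] (hq : 1 < q) (gp : List (M4 × M4)) (tab : List (List M4))
    (hA : chkA q (gp.map Prod.fst ++ gp.map Prod.snd) tab = true)
    (hB : chkB q gp tab = true)
    (hC : chkC q gp = true)
    (h1 : matOf tab 1 0 = (1, 0, 0, 1))
    (G : Set (Matrix.GeneralLinearGroup (Fin 2) (ZMod q)))
    (hG1 : ∀ u ∈ G, ∃ p ∈ gp, (u : Matrix (Fin 2) (Fin 2) (ZMod q)) = toMat q p.1)
    (hG2 : ∀ p ∈ gp, ∃ u ∈ G, (u : Matrix (Fin 2) (Fin 2) (ZMod q)) = toMat q p.1) :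
    Nat.card (Subgroup.closure G) = q ^ 2 - 1 ∧
    ∀ v w : Fin 2 → ZMod q, v ≠ 0 → w ≠ 0 →
      ∃! h : Subgroup.closure G,
        Matrix.mulVec ((h : Matrix.GeneralLinearGroup (Fin 2) (ZMod q)) :
          Matrix (Fin 2) (Fin 2) (ZMod q)) v = w := by
  have hCs : ∀ p ∈ gp, toMat q p.1 * toMat q p.2 = 1 := by
    intro p hp
    unfold chkC at hC
    rw [List.all_eq_true] at hC
    have := hC p hp
    rw [beq_iff_eq] at this
    rw [← toMat_mmul, this, toMat_one]
  have hinv : ∀ (u : Matrix.GeneralLinearGroup (Fin 2) (ZMod q)) (p : M4 × M4), p ∈ gp →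
      (u : Matrix (Fin 2) (Fin 2) (ZMod q)) = toMat q p.1 →
      ((u⁻¹ : Matrix.GeneralLinearGroup (Fin 2) (ZMod q)) : Matrix (Fin 2) (Fin 2) (ZMod q)) =
        toMat q p.2 := by
    intro u p hp hu
    apply Units.inv_eq_of_mul_eq_one_right
    rw [hu]
    exact hCs p hp
  have hS1 : Sset tab (1 : Matrix (Fin 2) (Fin 2) (ZMod q)) := by
    unfold Sset
    have e : fromMat (1 : Matrix (Fin 2) (Fin 2) (ZMod q)) = (1, 0, 0, 1) := by
      rw [← toMat_one q]
      exact fromMat_toMat _ ⟨hq, by show 0 < q; omega, by show 0 < q; omega, hq⟩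
    rw [e, inS_spec]
    have h1' := h1
    simp only [matOf, Prod.mk.injEq] at h1'
    refine ⟨Or.inl one_ne_zero, ?_, ?_⟩
    · exact h1'.2.1
    · exact h1'.2.2.2
  -- P1 : every element of the closure lies in the table set
  have P1 : ∀ h ∈ Subgroup.closure G, Sset tab (h : Matrix (Fin 2) (Fin 2) (ZMod q)) := by
    intro h hh
    have hP : (∀ M : Matrix (Fin 2) (Fin 2) (ZMod q), Sset tab M →
          Sset tab ((h : Matrix (Fin 2) (Fin 2) (ZMod q)) * M)) ∧
        (∀ M : Matrix (Fin 2) (Fin 2) (ZMod q), Sset tab M →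
          Sset tab (((h⁻¹ : Matrix.GeneralLinearGroup (Fin 2) (ZMod q)) :
            Matrix (Fin 2) (Fin 2) (ZMod q)) * M)) := by
      refine Subgroup.closure_induction
        (p := fun (u : Matrix.GeneralLinearGroup (Fin 2) (ZMod q)) _ =>
        (∀ M : Matrix (Fin 2) (Fin 2) (ZMod q), Sset tab M →
          Sset tab ((u : Matrix (Fin 2) (Fin 2) (ZMod q)) * M)) ∧
        (∀ M : Matrix (Fin 2) (Fin 2) (ZMod q), Sset tab M →
          Sset tab (((u⁻¹ : Matrix.GeneralLinearGroup (Fin 2) (ZMod q)) :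
            Matrix (Fin 2) (Fin 2) (ZMod q)) * M))) ?_ ?_ ?_ ?_ hh
      · intro u hu
        obtain ⟨p, hp, e⟩ := hG1 u hu
        refine ⟨fun M hM => ?_, fun M hM => ?_⟩
        · rw [e]
          exact Sset_mul _ tab hA M hM p.1
            (List.mem_append_left _ (List.mem_map_of_mem hp))
        · rw [hinv u p hp e]
          exact Sset_mul _ tab hA M hM p.2
            (List.mem_append_right _ (List.mem_map_of_mem hp))
      · refine ⟨fun M hM => ?_, fun M hM => ?_⟩
        · simpa using hM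
        · simpa using hM
      · rintro x y - - ⟨hx1, hx2⟩ ⟨hy1, hy2⟩
        refine ⟨fun M hM => ?_, fun M hM => ?_⟩
        · rw [Units.val_mul, Matrix.mul_assoc]
          exact hx1 _ (hy1 M hM)
        · rw [mul_inv_rev, Units.val_mul, Matrix.mul_assoc]
          exact hy2 _ (hx2 M hM)
      · rintro x - ⟨hx1, hx2⟩
        refine ⟨hx2, ?_⟩
        rw [inv_inv]
        exact hx1
    have := hP.1 1 hS1
    rwa [Matrix.mul_one] at this
  -- P3 : every table matrix is realised in the closure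
  have P3 : ∀ n x y, x < q → y < q → (x ≠ 0 ∨ y ≠ 0) → (ent tab x y).2.2.2 < n →
      ∃ u ∈ Subgroup.closure G,
        (u : Matrix (Fin 2) (Fin 2) (ZMod q)) = toMat q (matOf tab x y) := by
    intro n
    induction n with
    | zero => intro x y _ _ _ h; omega
    | succ n ih =>
      intro x y hx hy hxy hd
      rcases chkB_spec q gp tab hB x y hx hy hxy with ⟨rfl, rfl⟩ | ⟨p, hp, hin, hlt⟩
      · exact ⟨1, Subgroup.one_mem _, by rw [h1, toMat_one]; rfl⟩
      · have hm := mmul_lt (q := q) p.2 (matOf tab x y)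
        have hnz := ((inS_spec tab _).mp hin).1
        obtain ⟨u', hu', e'⟩ := ih _ _ hm.1 hm.2.2.1 hnz (by omega)
        rw [← inS_eq tab _ hin, toMat_mmul] at e'
        obtain ⟨u₀, hu₀, e₀⟩ := hG2 p hp
        refine ⟨u₀ * u', Subgroup.mul_mem _ (Subgroup.subset_closure hu₀) hu', ?_⟩
        rw [Units.val_mul, e₀, e', ← Matrix.mul_assoc, hCs p hp, Matrix.one_mul]
  -- D : transitivity on non-zero vectors from the base vector
  have D : ∀ v : Fin 2 → ZMod q, v ≠ 0 → ∃ u ∈ Subgroup.closure G,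
      Matrix.mulVec (u : Matrix (Fin 2) (Fin 2) (ZMod q)) ![1, 0] = v := by
    intro v hv
    have hxy : (v 0).val ≠ 0 ∨ (v 1).val ≠ 0 := by
      by_contra hcon
      push Not at hcon
      apply hv
      ext i
      fin_cases i
      · exact (ZMod.val_eq_zero _).mp hcon.1
      · exact (ZMod.val_eq_zero _).mp hcon.2
    obtain ⟨u, hu, e⟩ := P3 _ (v 0).val (v 1).val (ZMod.val_lt _) (ZMod.val_lt _) hxy
      (Nat.lt_succ_self _)
    refine ⟨u, hu, ?_⟩
    rw [mulVec_e1, e]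
    ext i
    fin_cases i <;> simp [toMat, matOf]
  -- E : an element of the closure is determined by its first column
  have E : ∀ h ∈ Subgroup.closure G, ∀ h' ∈ Subgroup.closure G,
      Matrix.mulVec (h : Matrix (Fin 2) (Fin 2) (ZMod q)) ![1, 0] =
        Matrix.mulVec (h' : Matrix (Fin 2) (Fin 2) (ZMod q)) ![1, 0] → h = h' := by
    intro h hh h' hh' e
    rw [mulVec_e1, mulVec_e1] at e
    have e0 := congrFun e 0
    have e1 := congrFun e 1
    simp only [Matrix.cons_val_zero, Matrix.cons_val_one] at e0 e1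
    exact Units.ext (Sset_ext tab _ _ (P1 h hh) (P1 h' hh') e0 e1)
  constructor
  · rw [← card_nonzero q]
    have hnz : ∀ h : Subgroup.closure G,
        Matrix.mulVec ((h : Matrix.GeneralLinearGroup (Fin 2) (ZMod q)) :
          Matrix (Fin 2) (Fin 2) (ZMod q)) ![1, 0] ≠ 0 := by
      rintro ⟨h, hh⟩ hcon
      have h2 := ((inS_spec tab _).mp (P1 h hh)).1
      simp only [fromMat] at h2
      rw [mulVec_e1] at hcon
      have e0 := congrFun hcon 0
      have e1 := congrFun hcon 1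
      simp only [Matrix.cons_val_zero, Matrix.cons_val_one, Pi.zero_apply] at e0 e1
      rcases h2 with h2 | h2
      · exact h2 (by rw [e0]; exact ZMod.val_zero)
      · exact h2 (by rw [e1]; exact ZMod.val_zero)
    refine Nat.card_congr (Equiv.ofBijective
      (fun h : Subgroup.closure G => (⟨_, hnz h⟩ : {v : Fin 2 → ZMod q // v ≠ 0})) ⟨?_, ?_⟩)
    · rintro ⟨h, hh⟩ ⟨h', hh'⟩ e
      simp only [Subtype.mk.injEq] at e
      exact Subtype.ext (E h hh h' hh' e)
    · rintro ⟨v, hv⟩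
      obtain ⟨u, hu, e⟩ := D v hv
      exact ⟨⟨u, hu⟩, Subtype.ext e⟩
  · intro v w hv hw
    obtain ⟨uv, huv, ev⟩ := D v hv
    obtain ⟨uw, huw, ew⟩ := D w hw
    have evinv : Matrix.mulVec ((uv⁻¹ : Matrix.GeneralLinearGroup (Fin 2) (ZMod q)) :
        Matrix (Fin 2) (Fin 2) (ZMod q)) v = ![1, 0] := by
      rw [← ev, Matrix.mulVec_mulVec, ← Units.val_mul, inv_mul_cancel, Units.val_one,
        Matrix.one_mulVec]
    refine ⟨⟨uw * uv⁻¹, Subgroup.mul_mem _ huw (Subgroup.inv_mem _ huv)⟩, ?_, ?_⟩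
    · show Matrix.mulVec ((uw * uv⁻¹ : Matrix.GeneralLinearGroup (Fin 2) (ZMod q)) :
        Matrix (Fin 2) (Fin 2) (ZMod q)) v = w
      rw [Units.val_mul, ← Matrix.mulVec_mulVec, evinv, ew]
    · rintro ⟨h, hh⟩ hhv
      have hhv' : Matrix.mulVec (h : Matrix (Fin 2) (Fin 2) (ZMod q)) v = w := hhv
      have e2 : h * uv = uw := by
        apply E _ (Subgroup.mul_mem _ hh huv) _ huw
        rw [Units.val_mul, ← Matrix.mulVec_mulVec, ev, hhv', ew]
      apply Subtype.ext
      show h = uw * uv⁻¹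
      rw [← e2]
      group

end Cfsg.Agent.Helper17.RegGL2
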