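import Mathlib

/-!
# Simplicity of sharply 4- and 5-transitive groups of degree 11 and 12 (helper17)

* `simple_of_sylow`: abstract criterion (every non-trivial normal subgroup has order divisible by
  `p`, Sylow `p`-subgroups of order `p` whose normalizers have no intermediate subgroups).
* `mem_zpowers_of_commute`: centralizer of an element of order 11 in `Perm α`, `|α| ≤ 12`.
* `simple_of_perm`: simplicity for `G ≤ Perm α`, `|α| ≤ 12`, `|G| = 11 c`.
-/

set_option autoImplicit false

namespace Cfsg.Agent.Helper17.SharpSimple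

open MulAction

theorem simple_of_sylow {G : Type*} [Group G] [Finite G] [Nontrivial G] (p : ℕ) [Fact p.Prime]
    (h1 : ∀ N : Subgroup G, N.Normal → N ≠ ⊥ → p ∣ Nat.card N)
    (h2 : ¬ p ^ 2 ∣ Nat.card G)
    (h3 : ∀ P : Sylow p G, ∀ H : Subgroup G, (P : Subgroup G) ≤ H →
      H ≤ Subgroup.normalizer ((P : Subgroup G) : Set G) →
      H = P ∨ H = Subgroup.normalizer ((P : Subgroup G) : Set G))
    (h4 : ∀ P : Sylow p G, Subgroup.normalizer ((P : Subgroup G) : Set G) ≠ ⊤) :
    IsSimpleGroup G := by
  have hp := (Fact.out : p.Prime)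
  refine ⟨fun N hN => ?_⟩
  by_contra hcon
  push Not at hcon
  obtain ⟨hbot, htop⟩ := hcon
  haveI := hN
  have hpN : p ∣ Nat.card N := h1 N hN hbot
  obtain ⟨x, hx⟩ := exists_prime_orderOf_dvd_card' p hpN
  have hxG : orderOf (x : G) = p := by rw [Subgroup.orderOf_coe]; exact hx
  have hQ : IsPGroup p (Subgroup.zpowers (x : G)) :=
    IsPGroup.of_card (n := 1) (by rw [Nat.card_zpowers, hxG, pow_one])
  obtain ⟨P, hQP⟩ := hQ.exists_le_sylow
  have hPcard : Nat.card (P : Subgroup G) = p := by
    obtain ⟨k, hk⟩ := P.2.exists_card_eq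
    have hk1 : k ≤ 1 := by
      by_contra hk2
      push Not at hk2
      apply h2
      calc p ^ 2 ∣ p ^ k := pow_dvd_pow p hk2
        _ = Nat.card (P : Subgroup G) := hk.symm
        _ ∣ Nat.card G := Subgroup.card_subgroup_dvd_card _
    have hk0 : k ≠ 0 := by
      rintro rfl
      have hdv : Nat.card (Subgroup.zpowers (x : G)) ∣ Nat.card (P : Subgroup G) :=
        Subgroup.card_dvd_of_le hQP
      rw [Nat.card_zpowers, hxG, hk, pow_zero, Nat.dvd_one] at hdv
      exact hp.one_lt.ne' hdv
    have hk' : k = 1 := by omega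
    rw [hk, hk', pow_one]
  have hQeq : Subgroup.zpowers (x : G) = P :=
    Subgroup.eq_of_le_of_card_ge hQP (by rw [hPcard, Nat.card_zpowers, hxG])
  have hPN : (P : Subgroup G) ≤ N := by
    rw [← hQeq, Subgroup.zpowers_le]; exact x.2
  have hfr := Sylow.normalizer_sup_eq_top' P hPN
  rcases h3 P (N ⊓ Subgroup.normalizer ((P : Subgroup G) : Set G))
    (le_inf hPN Subgroup.le_normalizer) inf_le_right with hH | hH
  · -- `N ⊓ N_G(P) = P`: Burnside's transfer gives a normal complement, contradiction
    have hP'coe : ((P.subtype hPN : Sylow p N) : Subgroup N) = (P : Subgroup G).subgroupOf N :=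
      Sylow.coe_subtype _ hPN
    have hP'card : Nat.card ((P.subtype hPN : Sylow p N) : Subgroup N) = p := by
      rw [hP'coe, Nat.card_congr (Subgroup.subgroupOfEquivOfLe hPN).toEquiv, hPcard]
    have hnorm : Subgroup.normalizer (((P.subtype hPN : Sylow p N) : Subgroup N) : Set N) ≤
        Subgroup.centralizer (((P.subtype hPN : Sylow p N) : Subgroup N) : Set N) := by
      intro y hy
      rw [hP'coe, ← Subgroup.subgroupOf_normalizer_eq hPN] at hy
      have hy' : (y : G) ∈ Subgroup.normalizer ((P : Subgroup G) : Set G) := hy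
      have hyP : (y : G) ∈ (P : Subgroup G) := by
        rw [← hH]; exact ⟨y.2, hy'⟩
      rw [Subgroup.mem_centralizer_iff]
      intro z hz
      rw [SetLike.mem_coe, hP'coe] at hz
      have hzP : (z : G) ∈ (P : Subgroup G) := hz
      rw [← hQeq, Subgroup.mem_zpowers_iff] at hyP hzP
      obtain ⟨i, hi⟩ := hyP
      obtain ⟨j, hj⟩ := hzP
      apply Subtype.ext
      show (z : G) * (y : G) = (y : G) * (z : G)
      rw [← hi, ← hj]
      exact (Commute.zpow_zpow_self (x : G) j i)
    have hcompl := MonoidHom.ker_transferSylow_isComplement' (P.subtype hPN) hnorm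
    have hndvd := MonoidHom.not_dvd_card_ker_transferSylow (P.subtype hPN) hnorm
    have hKn : ((MonoidHom.transferSylow (P.subtype hPN) hnorm).ker.map N.subtype).Normal := by
      constructor
      intro y hy g
      obtain ⟨k, hk, rfl⟩ := hy
      have hmem : g * (k : G) * g⁻¹ ∈ N := hN.conj_mem _ k.2 g
      refine ⟨⟨_, hmem⟩, ?_, rfl⟩
      rw [SetLike.mem_coe, MonoidHom.mem_ker]
      have ho : orderOf (⟨g * (k : G) * g⁻¹, hmem⟩ : N) = orderOf k := by
        rw [← Subgroup.orderOf_coe, ← Subgroup.orderOf_coe]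
        exact orderOf_injective (MulAut.conj g).toMonoidHom (MulAut.conj g).injective (k : G)
      have hd1 : orderOf (MonoidHom.transferSylow (P.subtype hPN) hnorm
          (⟨g * (k : G) * g⁻¹, hmem⟩ : N)) ∣ orderOf k := by
        rw [← ho]; exact orderOf_map_dvd _ _
      have hd2 : orderOf k ∣ Nat.card (MonoidHom.transferSylow (P.subtype hPN) hnorm).ker := by
        have := orderOf_dvd_natCard (⟨k, hk⟩ : (MonoidHom.transferSylow (P.subtype hPN) hnorm).ker)
        rwa [Subgroup.orderOf_mk] at this
      have hd3 : orderOf (MonoidHom.transferSylow (P.subtype hPN) hnorm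
          (⟨g * (k : G) * g⁻¹, hmem⟩ : N)) ∣ p := by
        have := orderOf_dvd_natCard (MonoidHom.transferSylow (P.subtype hPN) hnorm
          (⟨g * (k : G) * g⁻¹, hmem⟩ : N))
        rwa [hP'card] at this
      rcases (Nat.dvd_prime hp).mp hd3 with h | h
      · exact orderOf_eq_one_iff.mp h
      · rw [h] at hd1
        exact absurd (hd1.trans hd2) hndvd
    have hKbot : (MonoidHom.transferSylow (P.subtype hPN) hnorm).ker.map N.subtype = ⊥ := by
      by_contra hne
      have hdv := h1 _ hKn hne
      rw [Subgroup.card_map_of_injective (Subgroup.subtype_injective N)] at hdv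
      exact hndvd hdv
    have hKbot' : (MonoidHom.transferSylow (P.subtype hPN) hnorm).ker = ⊥ :=
      (Subgroup.map_eq_bot_iff_of_injective _ (Subgroup.subtype_injective N)).mp hKbot
    have hcardN : Nat.card N = p := by
      have := hcompl.card_mul_card
      rw [hKbot', Subgroup.card_bot, one_mul, hP'card] at this
      exact this.symm
    have hNP : (P : Subgroup G) = N :=
      Subgroup.eq_of_le_of_card_ge hPN (by rw [hcardN, hPcard])
    apply h4 P
    rw [hNP]
    exact Subgroup.normalizer_eq_top N
  · have hle : Subgroup.normalizer ((P : Subgroup G) : Set G) ≤ N := by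
      rw [← hH]; exact inf_le_left
    apply htop
    rw [← hfr]
    exact (sup_eq_right.mpr hle).symm

section Perm

variable {α : Type*} [Fintype α] [DecidableEq α]

/-- In `Perm α` with `|α| ≤ 12`, the centralizer of an element of order 11 is the cyclic group it
generates. -/
theorem mem_zpowers_of_commute (hα : Fintype.card α ≤ 12) (σ g : Equiv.Perm α)
    (hσ : orderOf σ = 11) (hc : g * σ = σ * g) : g ∈ Subgroup.zpowers σ := by
  have hσ1 : σ ≠ 1 := by
    rintro rfl
    simp at hσ
  obtain ⟨a, ha⟩ : ∃ a, σ a ≠ a := by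
    by_contra hcon
    push Not at hcon
    exact hσ1 (Equiv.ext hcon)
  haveI : Fact (Nat.Prime 11) := ⟨by norm_num⟩
  have hZcard : Nat.card (Subgroup.zpowers σ) = 11 := by rw [Nat.card_zpowers, hσ]
  -- orbits of non-fixed points have 11 elements
  have horb : ∀ b : α, σ b ≠ b → (orbit (Subgroup.zpowers σ) b).ncard = 11 := by
    intro b hb
    rw [← MulAction.index_stabilizer]
    haveI : Fact (Nat.card (Subgroup.zpowers σ)).Prime := ⟨by rw [hZcard]; norm_num⟩
    rcases Subgroup.eq_bot_or_eq_top_of_prime_card (stabilizer (Subgroup.zpowers σ) b)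
      with h | h
    · rw [h, Subgroup.index_bot, hZcard]
    · exfalso
      have : (⟨σ, Subgroup.mem_zpowers σ⟩ : Subgroup.zpowers σ) ∈
          stabilizer (Subgroup.zpowers σ) b := by rw [h]; trivial
      exact hb this
  have hcomm : ∀ b : α, g (σ b) = σ (g b) := fun b => by
    have := congrArg (fun f : Equiv.Perm α => f b) hc
    simpa using this
  have hga : σ (g a) ≠ g a := by
    rw [← hcomm]
    exact fun h => ha (g.injective h)
  -- the two orbits meet
  have hmeet : ¬ Disjoint (orbit (Subgroup.zpowers σ) a) (orbit (Subgroup.zpowers σ) (g a)) := by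
    intro hdis
    have h1 := Set.ncard_union_eq hdis
    rw [horb a ha, horb (g a) hga] at h1
    have h2 := Set.ncard_le_card (orbit (Subgroup.zpowers σ) a ∪ orbit (Subgroup.zpowers σ) (g a))
    rw [Nat.card_eq_fintype_card] at h2
    omega
  rw [Set.not_disjoint_iff] at hmeet
  obtain ⟨c, hc1, hc2⟩ := hmeet
  have hgaorb : g a ∈ orbit (Subgroup.zpowers σ) a := by
    rw [← MulAction.orbit_eq_iff.mpr hc1, MulAction.orbit_eq_iff.mpr hc2]
    exact MulAction.mem_orbit_self _
  obtain ⟨⟨τ, hτ⟩, hτa⟩ := hgaorb
  have hτa' : τ a = g a := hτa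
  -- `h = τ⁻¹ g` fixes the orbit of `a` pointwise
  have hτc : ∀ b : α, τ (σ b) = σ (τ b) := by
    obtain ⟨k, rfl⟩ := Subgroup.mem_zpowers_iff.mp hτ
    intro b
    have := (Commute.zpow_self σ k).eq
    have := congrArg (fun f : Equiv.Perm α => f b) this
    simpa using this
  have hh : ∀ b ∈ orbit (Subgroup.zpowers σ) a, τ b = g b := by
    rintro b ⟨⟨ρ, hρ⟩, rfl⟩
    show τ (ρ a) = g (ρ a)
    obtain ⟨k, rfl⟩ := Subgroup.mem_zpowers_iff.mp hρ
    have e1 : ∀ f : Equiv.Perm α, (∀ b, f (σ b) = σ (f b)) → ∀ b, f ((σ ^ k) b) = (σ ^ k) (f b) := by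
      intro f hf b
      have hcm : Commute f σ := Equiv.ext hf
      have := (hcm.zpow_right k).eq
      have := congrArg (fun f : Equiv.Perm α => f b) this
      simpa using this
    rw [e1 τ hτc, e1 g hcomm, hτa']
  have hcompl : ((orbit (Subgroup.zpowers σ) a)ᶜ).ncard ≤ 1 := by
    have := Set.ncard_add_ncard_compl (orbit (Subgroup.zpowers σ) a)
    rw [horb a ha, Nat.card_eq_fintype_card] at this
    omega
  have hfix : ∀ b : α, τ b = g b := by
    intro b
    by_cases hb : b ∈ orbit (Subgroup.zpowers σ) a
    · exact hh b hb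
    · -- `τ⁻¹ (g b)` is outside the orbit, hence equals `b`
      have hb' : τ⁻¹ (g b) ∉ orbit (Subgroup.zpowers σ) a := by
        intro hmem
        have := hh _ hmem
        rw [show τ (τ⁻¹ (g b)) = g b from Equiv.apply_symm_apply τ (g b)] at this
        -- g b = g (τ⁻¹ (g b)) so b = τ⁻¹ (g b)
        have := g.injective this
        rw [← this] at hmem
        exact hb hmem
      have := (Set.ncard_le_one_iff (Set.toFinite _)).mp hcompl hb hb'
      calc τ b = τ (τ⁻¹ (g b)) := congrArg τ this
        _ = g b := Equiv.apply_symm_apply τ (g b)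
  have : g = τ := Equiv.ext fun b => (hfix b).symm
  rw [this]
  exact hτ

theorem card_normalizer_dvd {G : Type*} [Group G] [Finite G] (P : Subgroup G)
    (hP : Nat.card P = 11) (hC : Subgroup.centralizer (P : Set G) ≤ P) :
    Nat.card (Subgroup.normalizer (P : Set G)) ∣ 110 := by
  haveI : Fact (Nat.Prime 11) := ⟨by norm_num⟩
  haveI : IsCyclic P := isCyclic_of_prime_card hP
  have h1 := Subgroup.card_mul_index P.normalizerMonoidHom.ker
  rw [Subgroup.index_ker] at h1
  have h2 : Nat.card P.normalizerMonoidHom.range ∣ 10 := by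
    have := Subgroup.card_subgroup_dvd_card P.normalizerMonoidHom.range
    rw [IsCyclic.card_mulAut, hP] at this
    exact this
  have h3 : Nat.card P.normalizerMonoidHom.ker ∣ 11 := by
    rw [Subgroup.normalizerMonoidHom_ker]
    have e1 : Nat.card ((Subgroup.centralizer (P : Set G)).subgroupOf
        (Subgroup.normalizer (P : Set G))) =
        Nat.card (Subgroup.centralizer (P : Set G) ⊓ Subgroup.normalizer (P : Set G) :
          Subgroup G) := by
      rw [← Subgroup.subgroupOf_map_subtype,
        Subgroup.card_map_of_injective (Subgroup.subtype_injective _)]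
    rw [e1, ← hP]
    exact Subgroup.card_dvd_of_le (inf_le_left.trans hC)
  rw [← h1]
  exact Nat.mul_dvd_mul h3 h2

theorem simple_of_perm (G : Subgroup (Equiv.Perm α)) (hα : Fintype.card α ≤ 12) (c : ℕ)
    (hG : Nat.card G = 11 * c) (hc11 : ¬ 11 ∣ c) (hc5 : c ≠ 5)
    (hc : ∀ e n : ℕ, e ∣ 10 → e * n = c → n % 11 = 1 → e = 5)
    (h1 : ∀ N : Subgroup G, N.Normal → N ≠ ⊥ → 11 ∣ Nat.card N) : IsSimpleGroup G := by
  haveI : Fact (Nat.Prime 11) := ⟨by norm_num⟩
  have hc0 : c ≠ 0 := by
    rintro rfl
    have := Nat.card_pos (α := G)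
    omega
  haveI : Nontrivial G := by
    rw [← Finite.one_lt_card_iff_nontrivial, hG]
    omega
  -- Sylow 11-subgroups have order 11
  have hPcard : ∀ P : Sylow 11 G, Nat.card (P : Subgroup G) = 11 := by
    intro P
    rw [Sylow.card_eq_multiplicity, hG, Nat.factorization_mul (by norm_num) hc0]
    simp [Nat.factorization_eq_zero_of_not_dvd hc11,
      Nat.Prime.factorization_self (by norm_num : Nat.Prime 11)]
  -- centralizers
  have hcent : ∀ P : Sylow 11 G, Subgroup.centralizer ((P : Subgroup G) : Set G) ≤ P := by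
    intro P g hg
    haveI : IsCyclic (P : Subgroup G) := isCyclic_of_prime_card (hPcard P)
    obtain ⟨s, hs⟩ := IsCyclic.exists_generator (α := (P : Subgroup G))
    have hso : orderOf s = 11 := by
      rw [orderOf_eq_card_of_forall_mem_zpowers hs, hPcard P]
    have hso' : orderOf (((s : G) : Equiv.Perm α)) = 11 := by
      rw [Subgroup.orderOf_coe, Subgroup.orderOf_coe, hso]
    have hcm : g * (s : G) = (s : G) * g := by
      have := hg (s : G) s.2
      exact this.symm
    have hcm' : (g : Equiv.Perm α) * ((s : G) : Equiv.Perm α) =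
        ((s : G) : Equiv.Perm α) * (g : Equiv.Perm α) := by
      have := congrArg (fun t : G => (t : Equiv.Perm α)) hcm
      simpa using this
    obtain ⟨k, hk⟩ := Subgroup.mem_zpowers_iff.mp
      (mem_zpowers_of_commute hα _ _ hso' hcm')
    have : g = (s : G) ^ k := by
      apply Subtype.ext
      rw [← hk]
      simp
    rw [this]
    exact Subgroup.zpow_mem _ s.2 k
  -- normalizers have order 55
  have hnorm : ∀ P : Sylow 11 G,
      Nat.card (Subgroup.normalizer ((P : Subgroup G) : Set G)) = 55 := by
    intro P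
    have hd1 := card_normalizer_dvd (P : Subgroup G) (hPcard P) (hcent P)
    have hd2 : 11 ∣ Nat.card (Subgroup.normalizer ((P : Subgroup G) : Set G)) := by
      have := Subgroup.card_dvd_of_le (Subgroup.le_normalizer (H := (P : Subgroup G)))
      rwa [hPcard P] at this
    have hidx := Subgroup.card_mul_index (Subgroup.normalizer ((P : Subgroup G) : Set G))
    have hmod := card_sylow_modEq_one 11 G
    rw [Sylow.card_eq_index_normalizer P] at hmod
    obtain ⟨e, he⟩ := hd2
    rw [he] at hd1 hidx ⊢
    have he10 : e ∣ 10 := by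
      have : 11 * e ∣ 11 * 10 := by simpa using hd1
      exact Nat.dvd_of_mul_dvd_mul_left (by norm_num) this
    have hen : e * (Subgroup.normalizer ((P : Subgroup G) : Set G)).index = c := by
      rw [hG, mul_assoc] at hidx
      exact Nat.eq_of_mul_eq_mul_left (by norm_num) hidx
    have hmod' : (Subgroup.normalizer ((P : Subgroup G) : Set G)).index % 11 = 1 := by
      have := hmod
      unfold Nat.ModEq at this
      simpa using this
    rw [hc e _ he10 hen hmod']
  refine simple_of_sylow 11 h1 ?_ ?_ ?_
  · rw [hG]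
    intro h
    have : 11 * 11 ∣ 11 * c := by simpa [pow_two] using h
    exact hc11 (Nat.dvd_of_mul_dvd_mul_left (by norm_num) this)
  · intro P H hPH hHN
    have hd1 : Nat.card H ∣ 55 := by
      rw [← hnorm P]; exact Subgroup.card_dvd_of_le hHN
    have hd2 : 11 ∣ Nat.card H := by
      rw [← hPcard P]; exact Subgroup.card_dvd_of_le hPH
    obtain ⟨k, hk⟩ := hd2
    have hk5 : k ∣ 5 := by
      rw [hk] at hd1
      have : 11 * k ∣ 11 * 5 := by simpa using hd1
      exact Nat.dvd_of_mul_dvd_mul_left (by norm_num) this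
    rcases (Nat.dvd_prime (by norm_num : Nat.Prime 5)).mp hk5 with rfl | rfl
    · left
      exact (Subgroup.eq_of_le_of_card_ge hPH (by rw [hk, hPcard P])).symm
    · right
      exact Subgroup.eq_of_le_of_card_ge hHN (by rw [hk, hnorm P])
  · intro P htop
    have := hnorm P
    rw [htop, Subgroup.card_top, hG] at this
    omega

omit [DecidableEq α] in
/-- The order of a sharply `k`-transitive group. -/
theorem card_of_sharp (G : Subgroup (Equiv.Perm α)) (k : ℕ) (hk : k ≤ Fintype.card α)
    [MulAction.IsMultiplyPretransitive G α k]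
    (hsharp : ∀ x : Fin k ↪ α, MulAction.stabilizer G x = ⊥) :
    Nat.card G = (Fintype.card α).descFactorial k := by
  obtain ⟨x⟩ : Nonempty (Fin k ↪ α) :=
    Function.Embedding.nonempty_of_card_le (by simpa using hk)
  have h := @MulAction.index_stabilizer_of_transitive G (Fin k ↪ α) _ _ x ‹_›
  rw [hsharp x, Subgroup.index_bot] at h
  rw [h, Nat.card_eq_fintype_card, Fintype.card_embedding_eq]
  simp

/-- A non-trivial normal subgroup of a 2-transitive permutation group is transitive. -/
theorem trans_of_normal (G : Subgroup (Equiv.Perm α)) [MulAction.IsMultiplyPretransitive G α 2]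
    (N : Subgroup G) (hN : N.Normal) (hbot : N ≠ ⊥) :
    IsPretransitive N α := by
  haveI := hN
  haveI hprim : IsPreprimitive G α := isPreprimitive_of_is_two_pretransitive inferInstance
  obtain ⟨n, hn1⟩ := Subgroup.ne_bot_iff_exists_ne_one.mp hbot
  obtain ⟨a, ha⟩ : ∃ a, (((n : G) : Equiv.Perm α)) a ≠ a := by
    by_contra hcon
    push Not at hcon
    apply hn1
    apply Subtype.ext
    apply Subtype.ext
    exact Equiv.ext hcon
  have hfix : MulAction.fixedPoints N α ≠ Set.univ := by
    intro h
    have hmem : a ∈ MulAction.fixedPoints N α := by rw [h]; trivial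
    exact ha (hmem n)
  exact IsQuasiPreprimitive.isPretransitive_of_normal hfix

theorem dvd_card_of_normal (G : Subgroup (Equiv.Perm α)) [MulAction.IsMultiplyPretransitive G α 2]
    (N : Subgroup G) (hN : N.Normal) (hbot : N ≠ ⊥) :
    Fintype.card α ∣ Nat.card N := by
  haveI := trans_of_normal G N hN hbot
  haveI : Nonempty α := by
    obtain ⟨n, hn1⟩ := Subgroup.ne_bot_iff_exists_ne_one.mp hbot
    by_contra hcon
    rw [not_nonempty_iff] at hcon
    apply hn1
    apply Subtype.ext
    apply Subtype.ext
    exact Equiv.ext fun a => (hcon.false a).elim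
  obtain ⟨a⟩ := ‹Nonempty α›
  have := MulAction.index_stabilizer_of_transitive N a
  rw [← Nat.card_eq_fintype_card, ← this]
  exact Subgroup.index_dvd_card _

/-- In a 5-transitive group of degree 12, every non-trivial normal subgroup has order divisible
by 11. -/
theorem eleven_dvd_of_normal (hα : Fintype.card α = 12) (G : Subgroup (Equiv.Perm α))
    [MulAction.IsMultiplyPretransitive G α 5]
    (N : Subgroup G) (hN : N.Normal) (hbot : N ≠ ⊥) : 11 ∣ Nat.card N := by
  haveI := hN
  haveI h2 : IsMultiplyPretransitive G α 2 :=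
    isMultiplyPretransitive_of_le (n := 5) (by norm_num)
      (by rw [Nat.card_eq_fintype_card, hα]; norm_num)
  haveI hpt : IsPretransitive G α := isPretransitive_of_is_two_pretransitive
  haveI hNtr := trans_of_normal G N hN hbot
  obtain ⟨a⟩ : Nonempty α := by
    rw [← Fintype.card_pos_iff, hα]; norm_num
  have h4 : IsMultiplyPretransitive (stabilizer G a) (SubMulAction.ofStabilizer G a) 4 :=
    (SubMulAction.ofStabilizer.isMultiplyPretransitive (n := 4)).mp inferInstance
  have hc11 : Nat.card (SubMulAction.ofStabilizer G a) = 11 := by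
    rw [SubMulAction.nat_card_ofStabilizer_eq, Nat.card_eq_fintype_card, hα]
  have h2' : IsMultiplyPretransitive (stabilizer G a) (SubMulAction.ofStabilizer G a) 2 :=
    isMultiplyPretransitive_of_le (n := 4) (by norm_num) (by rw [hc11]; norm_num)
  haveI hprim : IsPreprimitive (stabilizer G a) (SubMulAction.ofStabilizer G a) :=
    isPreprimitive_of_is_two_pretransitive h2'
  by_cases hfix : fixedPoints (N.subgroupOf (stabilizer G a)) (SubMulAction.ofStabilizer G a) =
      Set.univ
  · exfalso
    have hfree : ∀ n : G, n ∈ N → n • a = a → n = 1 := by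
      intro n hn hna
      have hmem : (⟨n, hna⟩ : stabilizer G a) ∈ N.subgroupOf (stabilizer G a) := hn
      apply Subtype.ext
      apply Equiv.ext
      intro b
      by_cases hb : b = a
      · subst hb; exact hna
      · have hb' : (⟨b, hb⟩ : SubMulAction.ofStabilizer G a) ∈
            fixedPoints (N.subgroupOf (stabilizer G a)) (SubMulAction.ofStabilizer G a) := by
          rw [hfix]; trivial
        have := hb' ⟨⟨n, hna⟩, hmem⟩
        exact congrArg Subtype.val this
    have hN12 : Nat.card N = 12 := by
      have := MulAction.index_stabilizer_of_transitive N a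
      have hst : stabilizer N a = ⊥ := by
        rw [eq_bot_iff]
        intro n hn
        rw [Subgroup.mem_bot]
        apply Subtype.ext
        exact hfree n n.2 hn
      rw [hst, Subgroup.index_bot] at this
      rw [this, Nat.card_eq_fintype_card, hα]
    haveI : Fact (Nat.Prime 2) := ⟨by norm_num⟩
    haveI : Fact (Nat.Prime 3) := ⟨by norm_num⟩
    obtain ⟨x, hx⟩ := exists_prime_orderOf_dvd_card' 2 (by rw [hN12]; norm_num : 2 ∣ Nat.card N)
    obtain ⟨y, hy⟩ := exists_prime_orderOf_dvd_card' 3 (by rw [hN12]; norm_num : 3 ∣ Nat.card N)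
    have hxa : (x : G) • a ≠ a := by
      intro h
      have h1 := hfree x x.2 h
      have h2 : x = 1 := Subtype.ext h1
      rw [h2, orderOf_one] at hx
      omega
    have hya : (y : G) • a ≠ a := by
      intro h
      have h1 := hfree y y.2 h
      have h2 : y = 1 := Subtype.ext h1
      rw [h2, orderOf_one] at hy
      omega
    have H2 : ∀ a b c d : α, a ≠ b → c ≠ d → ∃ g : G, g • a = c ∧ g • b = d :=
      fun a b c d hab hcd => (is_two_pretransitive_iff (G := G) (α := α)).mp h2 hab hcd
    obtain ⟨g, hga, hgx⟩ := H2 a ((x : G) • a) a ((y : G) • a) (Ne.symm hxa) (Ne.symm hya)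
    have hz : g * (x : G) * g⁻¹ ∈ N := hN.conj_mem _ x.2 g
    have hginv : g⁻¹ • a = a := by rw [inv_smul_eq_iff, hga]
    have hza : (g * (x : G) * g⁻¹) • a = (y : G) • a := by
      rw [mul_smul, mul_smul, hginv]; exact hgx
    have h1 : (y : G)⁻¹ * (g * (x : G) * g⁻¹) = 1 :=
      hfree _ (N.mul_mem (N.inv_mem y.2) hz) (by rw [mul_smul, hza, inv_smul_smul])
    have hzy : g * (x : G) * g⁻¹ = y := by
      rw [inv_mul_eq_one] at h1; exact h1.symm
    have ho : orderOf (y : G) = orderOf (x : G) := by
      rw [← hzy]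
      exact orderOf_injective (MulAut.conj g).toMonoidHom (MulAut.conj g).injective (x : G)
    rw [Subgroup.orderOf_coe, Subgroup.orderOf_coe, hx, hy] at ho
    omega
  · haveI : IsPretransitive (N.subgroupOf (stabilizer G a)) (SubMulAction.ofStabilizer G a) :=
      IsQuasiPreprimitive.isPretransitive_of_normal hfix
    obtain ⟨b⟩ : Nonempty (SubMulAction.ofStabilizer G a) :=
      (Nat.card_pos_iff.mp (by rw [hc11]; norm_num)).1
    have h11 : 11 ∣ Nat.card (N.subgroupOf (stabilizer G a)) := by
      have := MulAction.index_stabilizer_of_transitive (N.subgroupOf (stabilizer G a)) b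
      rw [hc11] at this
      rw [← this]
      exact Subgroup.index_dvd_card _
    have e1 : Nat.card (N.subgroupOf (stabilizer G a)) =
        Nat.card (N ⊓ stabilizer G a : Subgroup G) := by
      rw [← Subgroup.subgroupOf_map_subtype,
        Subgroup.card_map_of_injective (Subgroup.subtype_injective _)]
    rw [e1] at h11
    exact h11.trans (Subgroup.card_dvd_of_le inf_le_left)

end Perm


end Cfsg.Agent.Helper17.SharpSimple
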