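import Mathlib
import Cfsg.Prelude.Def_SporCoxeter
import Cfsg.Agent.Helper17.TCIndex

/-!
# Coxeter-type presentations and coset enumeration certificates (helper17)
-/

set_option autoImplicit false

namespace Cfsg.Agent.Helper17.TC

noncomputable section

/-- word expressions in the columns -/
inductive WE where
  | g (x : ℕ) : WE
  | mul (a b : WE) : WE
  | inv (a : WE) : WE
  | pow (a : WE) (n : ℕ) : WE

namespace WE

/-- value in a group -/
def eval {K : Type*} [Group K] (k : ℕ → K) : WE → K
  | g x => k x
  | mul a b => a.eval k * b.eval k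
  | inv a => (a.eval k)⁻¹
  | pow a n => (a.eval k) ^ n

/-- the word of columns -/
def toList (invc : ℕ → ℕ) : WE → List ℕ
  | g x => [x]
  | mul a b => a.toList invc ++ b.toList invc
  | inv a => (a.toList invc).reverse.map invc
  | pow a n => (List.replicate n (a.toList invc)).flatten

/-- all letters are columns `< n` -/
def okb (n : ℕ) : WE → Bool
  | g x => decide (x < n)
  | mul a b => a.okb n && b.okb n
  | inv a => a.okb n
  | pow a _ => a.okb n

theorem toList_lt (invc : ℕ → ℕ) (n : ℕ) (hinvc : ∀ x < n, invc x < n) :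
    ∀ e : WE, e.okb n = true → ∀ x ∈ e.toList invc, x < n := by
  intro e
  induction e with
  | g x => intro h y hy; simp [toList] at hy; simp [okb] at h; omega
  | mul a b iha ihb =>
    intro h y hy
    simp only [okb, Bool.and_eq_true] at h
    simp only [toList, List.mem_append] at hy
    rcases hy with hy | hy
    · exact iha h.1 y hy
    · exact ihb h.2 y hy
  | inv a ih =>
    intro h y hy
    simp only [toList, List.mem_map, List.mem_reverse] at hy
    obtain ⟨z, hz, rfl⟩ := hy
    exact hinvc z (ih h z hz)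
  | pow a m ih =>
    intro h y hy
    simp only [toList, List.mem_flatten, List.mem_replicate] at hy
    obtain ⟨l, ⟨-, rfl⟩, hy⟩ := hy
    exact ih h y hy

theorem prod_replicate_flatten {K : Type*} [Group K] (k : ℕ → K) (l : List ℕ) (m : ℕ) :
    ((List.replicate m l).flatten.map k).prod = ((l.map k).prod) ^ m := by
  induction m with
  | zero => simp
  | succ m ihm =>
    rw [List.replicate_succ, List.flatten_cons, List.map_append, List.prod_append, ihm, pow_succ']

theorem eval_toList {K : Type*} [Group K] (k : ℕ → K) (invc : ℕ → ℕ) (n : ℕ)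
    (hinvc : ∀ x < n, invc x < n) (hk : ∀ x < n, k (invc x) = (k x)⁻¹) :
    ∀ e : WE, e.okb n = true → ((e.toList invc).map k).prod = e.eval k := by
  intro e
  induction e with
  | g x => intro _; simp [toList, eval]
  | mul a b iha ihb =>
    intro h
    simp only [okb, Bool.and_eq_true] at h
    simp only [toList, eval, List.map_append, List.prod_append, iha h.1, ihb h.2]
  | inv a ih =>
    intro h
    have hlt := toList_lt invc n hinvc a h
    simp only [toList, eval, List.map_map]
    rw [← ih h, List.prod_inv_reverse, List.map_reverse, List.map_map]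
    congr 2
    apply List.map_congr_left
    intro x hx
    exact hk x (hlt x hx)
  | pow a m ih =>
    intro h
    simp only [toList, eval]
    rw [← ih h]
    exact prod_replicate_flatten k _ m

theorem map_eval {K K' : Type*} [Group K] [Group K'] (φ : K →* K') (k : ℕ → K) :
    ∀ e : WE, φ (e.eval k) = e.eval (fun x => φ (k x)) := by
  intro e
  induction e with
  | g x => rfl
  | mul a b iha ihb => simp only [eval, map_mul, iha, ihb]
  | inv a ih => simp only [eval, map_inv, ih]
  | pow a m ih => simp only [eval, map_pow, ih]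

theorem eval_congr {K : Type*} [Group K] (k k' : ℕ → K) (n : ℕ) (hk : ∀ x < n, k x = k' x) :
    ∀ e : WE, e.okb n = true → e.eval k = e.eval k' := by
  intro e
  induction e with
  | g x => intro h; simp only [okb, decide_eq_true_eq] at h; exact hk x h
  | mul a b iha ihb =>
    intro h
    simp only [okb, Bool.and_eq_true] at h
    simp only [eval, iha h.1, ihb h.2]
  | inv a ih => intro h; simp only [eval, ih h]
  | pow a m ih => intro h; simp only [eval, ih h]

end WE

theorem swap_pow_eq_one {K : Type*} [Group K] (a b : K) (m : ℕ) (h : (a * b) ^ m = 1) :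
    (b * a) ^ m = 1 := by
  have : b * a = b * (a * b) * b⁻¹ := by group
  rw [this, conj_pow, h]
  group

theorem prod_map_inv_eq {K : Type*} [Group K] (P : ℕ → K) (w : List ℕ) :
    (w.map fun x => (P x)⁻¹).prod = ((w.reverse.map P).prod)⁻¹ := by
  induction w with
  | nil => simp
  | cons a w ih =>
    rw [List.map_cons, List.prod_cons, ih, List.reverse_cons, List.map_append, List.prod_append,
      mul_inv_rev]
    simp

section Pres

open Cfsg.Spor

variable {α : Type} [DecidableEq α]

/-- the word of a column: a generator or its inverse -/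
def colWord (colGen : ℕ → α × Bool) (x : ℕ) : FreeGroup α :=
  if (colGen x).2 then FreeGroup.of (colGen x).1 else (FreeGroup.of (colGen x).1)⁻¹

/-- the expressions of the Coxeter relators that are enumerated -/
def coxEs (edges : List (α × ℕ × α)) (colOf : α → ℕ) (nodes : List α) : List WE :=
  nodes.flatMap fun x => (nodes.filter fun y => decide (colOf x ≤ colOf y)).map fun y =>
    WE.pow (WE.mul (WE.g (colOf x)) (WE.g (colOf y))) (coxLabel edges x y)

/-- the data linking a Coxeter-type presentation, a generating set of a subgroup and a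
certificate -/
structure Link (edges : List (α × ℕ × α)) (extra : List (FreeGroup α)) (S : Set (FreeGroup α))
    (c : Cert) (colOf : α → ℕ) (colGen : ℕ → α × Bool) (nodes : List α)
    (extraEs subEs : List WE) : Prop where
  hall : ∀ a : α, colOf a < c.ncols ∧ colGen (colOf a) = (a, true)
  hcols : ∀ x < c.ncols, ((colGen x).2 = true ∧ colOf (colGen x).1 = x) ∨
    ((colGen x).2 = false ∧ getL c.invc (colOf (colGen x).1) = x)
  hinvs : ∀ x < c.ncols, colGen (getL c.invc x) = ((colGen x).1, !(colGen x).2) ∨
    ((colGen x).2 = true ∧ getL c.invc x = x ∧ (colGen x).1 ∈ nodes)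
  hn1 : ∀ x ∈ coxNodes edges, x ∈ nodes
  hn2 : ∀ x ∈ nodes, x ∈ coxNodes edges
  hsym : ∀ x ∈ nodes, ∀ y ∈ nodes, coxLabel edges x y = coxLabel edges y x
  hrels : c.rels = (coxEs edges colOf nodes ++ extraEs).map (WE.toList (getL c.invc))
  hextra : extra = extraEs.map (WE.eval (colWord colGen))
  hok : ∀ e ∈ extraEs ++ subEs, e.okb c.ncols = true
  hsubs : c.subs = subEs.map (WE.toList (getL c.invc))
  hS1 : ∀ s ∈ S, ∃ e ∈ subEs, s = e.eval (colWord colGen)
  hS2 : ∀ e ∈ subEs, e.eval (colWord colGen) ∈ S

variable {edges : List (α × ℕ × α)} {extra : List (FreeGroup α)} {S : Set (FreeGroup α)}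
  {c : Cert} {colOf : α → ℕ} {colGen : ℕ → α × Bool} {nodes : List α} {extraEs subEs : List WE}

theorem Link.colWord_of (L : Link edges extra S c colOf colGen nodes extraEs subEs) (a : α) :
    colWord colGen (colOf a) = FreeGroup.of a := by
  unfold colWord
  rw [(L.hall a).2]
  simp

theorem Link.coxEs_ok (L : Link edges extra S c colOf colGen nodes extraEs subEs) :
    ∀ e ∈ coxEs edges colOf nodes, e.okb c.ncols = true := by
  intro e he
  unfold coxEs at he
  simp only [List.mem_flatMap, List.mem_map, List.mem_filter] at he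
  obtain ⟨x, -, y, -, rfl⟩ := he
  simp [WE.okb, (L.hall x).1, (L.hall y).1]

theorem Link.coxEs_eval (L : Link edges extra S c colOf colGen nodes extraEs subEs) :
    ∀ e ∈ coxEs edges colOf nodes, e.eval (colWord colGen) ∈ coxRelators edges := by
  intro e he
  unfold coxEs at he
  simp only [List.mem_flatMap, List.mem_map, List.mem_filter] at he
  obtain ⟨x, hx, y, ⟨hy, -⟩, rfl⟩ := he
  refine ⟨x, L.hn2 x hx, y, L.hn2 y hy, ?_⟩
  simp only [WE.eval, L.colWord_of]

/-- every relator of the presentation is (up to swapping a Coxeter pair) an enumerated one -/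
theorem Link.rel_cases (L : Link edges extra S c colOf colGen nodes extraEs subEs) :
    ∀ r ∈ coxRelators edges ∪ {r | r ∈ extra},
      (∃ e : WE, e.okb c.ncols = true ∧ e.toList (getL c.invc) ∈ c.rels ∧
        r = e.eval (colWord colGen)) ∨
      (∃ u v m, u < c.ncols ∧ v < c.ncols ∧
        (WE.pow (WE.mul (WE.g v) (WE.g u)) m).toList (getL c.invc) ∈ c.rels ∧
        r = (colWord colGen u * colWord colGen v) ^ m) := by
  intro r hr
  rcases hr with hr | hr
  · obtain ⟨x, hx, y, hy, rfl⟩ := hr
    have hxn := L.hn1 x hx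
    have hyn := L.hn1 y hy
    by_cases hle : colOf x ≤ colOf y
    · left
      refine ⟨WE.pow (WE.mul (WE.g (colOf x)) (WE.g (colOf y))) (coxLabel edges x y), ?_, ?_, ?_⟩
      · simp [WE.okb, (L.hall x).1, (L.hall y).1]
      · rw [L.hrels]
        apply List.mem_map_of_mem
        apply List.mem_append_left
        unfold coxEs
        simp only [List.mem_flatMap, List.mem_map, List.mem_filter]
        exact ⟨x, hxn, y, ⟨hyn, by simpa using hle⟩, rfl⟩
      · simp only [WE.eval, L.colWord_of]
    · right
      refine ⟨colOf x, colOf y, coxLabel edges x y, (L.hall x).1, (L.hall y).1, ?_, ?_⟩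
      · rw [L.hrels]
        apply List.mem_map_of_mem
        apply List.mem_append_left
        unfold coxEs
        simp only [List.mem_flatMap, List.mem_map, List.mem_filter]
        refine ⟨y, hyn, x, ⟨hxn, by simp; omega⟩, ?_⟩
        rw [L.hsym x hxn y hyn]
      · simp only [L.colWord_of]
  · left
    have hr' : r ∈ extra := hr
    rw [L.hextra, List.mem_map] at hr'
    obtain ⟨e, he, rfl⟩ := hr'
    refine ⟨e, L.hok e (List.mem_append_left _ he), ?_, rfl⟩
    rw [L.hrels]
    exact List.mem_map_of_mem (List.mem_append_right _ he)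

/-- every enumerated relator word comes from a relator of the presentation -/
theorem Link.word_cases (L : Link edges extra S c colOf colGen nodes extraEs subEs) :
    ∀ w ∈ c.rels, ∃ e : WE, e.okb c.ncols = true ∧ w = e.toList (getL c.invc) ∧
      e.eval (colWord colGen) ∈ coxRelators edges ∪ {r | r ∈ extra} := by
  intro w hw
  rw [L.hrels, List.mem_map] at hw
  obtain ⟨e, he, rfl⟩ := hw
  rcases List.mem_append.mp he with he | he
  · exact ⟨e, L.coxEs_ok e he, rfl, Or.inl (L.coxEs_eval e he)⟩
  · refine ⟨e, L.hok e (List.mem_append_left _ he), rfl, Or.inr ?_⟩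
    show e.eval (colWord colGen) ∈ extra
    rw [L.hextra]
    exact List.mem_map_of_mem he

/-- the inverse column in the presented group -/
theorem Link.mk_invc (L : Link edges extra S c colOf colGen nodes extraEs subEs) {x : ℕ}
    (hx : x < c.ncols) :
    PresentedGroup.mk (coxRelators edges ∪ {r | r ∈ extra}) (colWord colGen (getL c.invc x)) =
      (PresentedGroup.mk (coxRelators edges ∪ {r | r ∈ extra}) (colWord colGen x))⁻¹ := by
  rcases L.hinvs x hx with h | ⟨h1, h2, h3⟩
  · rw [← map_inv]
    congr 1
    unfold colWord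
    rw [h]
    cases hb : (colGen x).2 <;> simp
  · rw [h2]
    unfold colWord
    rw [h1]
    simp only [if_true]
    apply eq_inv_of_mul_eq_one_left
    rw [← map_mul]
    apply PresentedGroup.one_of_mem
    left
    refine ⟨_, L.hn2 _ h3, _, L.hn2 _ h3, ?_⟩
    simp [coxLabel]

omit [DecidableEq α] in
theorem toGroup_mk {K : Type*} [Group K] {rels : Set (FreeGroup α)} {f : α → K}
    (h : ∀ r ∈ rels, FreeGroup.lift f r = 1) (w : FreeGroup α) :
    PresentedGroup.toGroup h (PresentedGroup.mk rels w) = FreeGroup.lift f w := rfl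

/-- the main theorem for Coxeter-type presentations -/
theorem Link.main (L : Link edges extra S c colOf colGen nodes extraEs subEs) (h : Checked c) :
    ∃ (ρ : PresentedGroup (coxRelators edges ∪ {r | r ∈ extra}) →* Equiv.Perm (Fin c.N))
      (e : PresentedGroup (coxRelators edges ∪ {r | r ∈ extra}) ⧸
        ((Subgroup.closure S).map (PresentedGroup.mk (coxRelators edges ∪ {r | r ∈ extra}))) ≃
          Fin c.N),
      (∀ a q, e (a • q) = ρ a (e q)) ∧
      e ((1 : PresentedGroup (coxRelators edges ∪ {r | r ∈ extra})) : _ ⧸ _) = ⟨0, h.pos⟩ ∧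
      (∀ e' ∈ subEs, ∀ v : Fin c.N,
        (((ρ (PresentedGroup.mk _ (e'.eval (colWord colGen))))⁻¹ v : Fin c.N) : ℕ) =
          walkF c (e'.toList (getL c.invc)) v) := by
  obtain ⟨hN, hNM, hinvc, hwr, hws, hs0⟩ := chkSmall_spec c h.small
  have hinvc1 : ∀ x < c.ncols, getL c.invc x < c.ncols := fun x hx => (hinvc x hx).1
  -- the permutation representation
  let f : α → Equiv.Perm (Fin c.N) := fun a => (permF h (colOf a))⁻¹
  have hk : ∀ x < c.ncols, FreeGroup.lift f (colWord colGen x) = (permF h x)⁻¹ := by
    intro x hx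
    unfold colWord
    rcases L.hcols x hx with ⟨h1, h2⟩ | ⟨h1, h2⟩
    · rw [h1]
      simp only [if_true, FreeGroup.lift_apply_of]
      show (permF h (colOf (colGen x).1))⁻¹ = _
      rw [h2]
    · rw [h1]
      simp only [Bool.false_eq_true, if_false, map_inv, FreeGroup.lift_apply_of]
      show ((permF h (colOf (colGen x).1))⁻¹)⁻¹ = _
      have hx' := L.hall (colGen x).1
      have e1 : permF h x = (permF h (colOf (colGen x).1))⁻¹ := by
        rw [← permF_invc h hx'.1]
        congr 1
        exact h2.symm
      rw [e1]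
  have hkinv : ∀ x < c.ncols, (fun x => FreeGroup.lift f (colWord colGen x)) (getL c.invc x) =
      ((fun x => FreeGroup.lift f (colWord colGen x)) x)⁻¹ := by
    intro x hx
    show FreeGroup.lift f (colWord colGen (getL c.invc x)) = (FreeGroup.lift f (colWord colGen x))⁻¹
    rw [hk x hx, hk _ (hinvc1 x hx), permF_invc h hx]
  have hword : ∀ e : WE, e.okb c.ncols = true →
      FreeGroup.lift f (e.eval (colWord colGen)) =
        (((e.toList (getL c.invc)).reverse.map (permF h)).prod)⁻¹ := by
    intro e he
    rw [WE.map_eval, ← WE.eval_toList _ (getL c.invc) c.ncols hinvc1 hkinv e he, ← prod_map_inv_eq]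
    congr 1
    apply List.map_congr_left
    intro x hx
    exact hk x (WE.toList_lt _ _ hinvc1 e he x hx)
  have hrelP : ∀ r ∈ coxRelators edges ∪ {r | r ∈ extra}, FreeGroup.lift f r = 1 := by
    intro r hr
    rcases L.rel_cases r hr with ⟨e, he, hmem, rfl⟩ | ⟨u, v, m, hu, hv, hmem, rfl⟩
    · rw [hword e he, permF_rel h hmem, inv_one]
    · have h1 := hword (WE.pow (WE.mul (WE.g v) (WE.g u)) m) (by simp [WE.okb, hu, hv])
      rw [permF_rel h hmem, inv_one] at h1
      simp only [WE.eval, map_pow, map_mul] at h1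
      rw [map_pow, map_mul]
      exact swap_pow_eq_one _ _ _ h1
  let ρ := PresentedGroup.toGroup hrelP
  let g : ℕ → PresentedGroup (coxRelators edges ∪ {r | r ∈ extra}) :=
    fun x => PresentedGroup.mk _ (colWord colGen x)
  have hginv : ∀ x < c.ncols, g (getL c.invc x) = (g x)⁻¹ := fun x hx => L.mk_invc hx
  have hevalg : ∀ e : WE, e.okb c.ncols = true →
      ((e.toList (getL c.invc)).map g).prod = PresentedGroup.mk _ (e.eval (colWord colGen)) := by
    intro e he
    rw [WE.eval_toList g (getL c.invc) c.ncols hinvc1 hginv e he, WE.map_eval]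
  have hgen : Subgroup.closure {y | ∃ x < c.ncols, y = g x} = ⊤ := by
    rw [eq_top_iff, ← PresentedGroup.closure_range_of]
    apply Subgroup.closure_mono
    rintro _ ⟨a, rfl⟩
    refine ⟨colOf a, (L.hall a).1, ?_⟩
    show PresentedGroup.mk _ (FreeGroup.of a) = PresentedGroup.mk _ (colWord colGen (colOf a))
    rw [L.colWord_of]
  have hrel : ∀ w ∈ c.rels, (w.map g).prod = 1 := by
    intro w hw
    obtain ⟨e, he, rfl, hmem⟩ := L.word_cases w hw
    rw [hevalg e he]
    exact PresentedGroup.one_of_mem hmem
  have hsub : ∀ w ∈ c.subs, (w.map g).prod ∈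
      (Subgroup.closure S).map (PresentedGroup.mk (coxRelators edges ∪ {r | r ∈ extra})) := by
    intro w hw
    rw [L.hsubs, List.mem_map] at hw
    obtain ⟨e, he, rfl⟩ := hw
    rw [hevalg e (L.hok e (List.mem_append_right _ he))]
    exact Subgroup.mem_map_of_mem _ (Subgroup.subset_closure (L.hS2 e he))
  have hρ : ∀ x < c.ncols, ρ (g x) = (permF h x)⁻¹ := by
    intro x hx
    show PresentedGroup.toGroup hrelP (PresentedGroup.mk _ (colWord colGen x)) = _
    rw [toGroup_mk, hk x hx]
  have hsubP : ∀ e' ∈ subEs, ρ (PresentedGroup.mk _ (e'.eval (colWord colGen))) =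
      (((e'.toList (getL c.invc)).reverse.map (permF h)).prod)⁻¹ := by
    intro e' he'
    show PresentedGroup.toGroup hrelP (PresentedGroup.mk _ (e'.eval (colWord colGen))) = _
    rw [toGroup_mk, hword e' (L.hok e' (List.mem_append_right _ he'))]
  have hH : ∀ a ∈ (Subgroup.closure S).map
      (PresentedGroup.mk (coxRelators edges ∪ {r | r ∈ extra})), ρ a ⟨0, h.pos⟩ = ⟨0, h.pos⟩ := by
    intro a ha
    obtain ⟨s, hs, rfl⟩ := Subgroup.mem_map.mp ha
    refine Subgroup.closure_induction (p := fun (s : FreeGroup α) _ =>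
      ρ (PresentedGroup.mk _ s) ⟨0, h.pos⟩ = ⟨0, h.pos⟩ ∧
      (ρ (PresentedGroup.mk _ s))⁻¹ ⟨0, h.pos⟩ = ⟨0, h.pos⟩) ?_ ?_ ?_ ?_ hs |>.1
    · intro s hs
      obtain ⟨e', he', rfl⟩ := L.hS1 s hs
      have hfix := permF_sub h (w := e'.toList (getL c.invc))
        (by rw [L.hsubs]; exact List.mem_map_of_mem he')
      have hsP := hsubP e' he'
      refine ⟨?_, ?_⟩
      · rw [hsP, Equiv.Perm.inv_eq_iff_eq]
        exact hfix.symm
      · rw [hsP, inv_inv]
        exact hfix
    · simp
    · rintro x y - - ⟨hx1, hx2⟩ ⟨hy1, hy2⟩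
      refine ⟨?_, ?_⟩
      · rw [map_mul, map_mul, Equiv.Perm.mul_apply, hy1, hx1]
      · rw [map_mul, map_mul, mul_inv_rev, Equiv.Perm.mul_apply, hx2, hy2]
    · rintro x - ⟨hx1, hx2⟩
      refine ⟨?_, ?_⟩
      · rw [map_inv, map_inv]; exact hx2
      · rw [map_inv, map_inv, inv_inv]; exact hx1
  obtain ⟨e, he1, he2⟩ := main_equiv _ g h hgen hginv hrel hsub ρ hρ hH
  refine ⟨ρ, e, he1, he2, ?_⟩
  intro e' he' v
  rw [hsubP e' he', inv_inv]
  exact permF_word h _ (WE.toList_lt _ _ hinvc1 e' (L.hok e' (List.mem_append_right _ he'))) v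

end Pres

end

end Cfsg.Agent.Helper17.TC
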