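import Mathlib
import Cfsg.Agent.Helper17.TCPres

/-!
# Orbits of the subgroup on its cosets, from a checked coset table (helper17)

Every point of the final table carries a label; the checks say that the labels are invariant
under the generators of the subgroup, and that every point is reached from the root of its
label by a path of generators of the subgroup (a parent pointer with a strictly smaller depth).
-/

set_option autoImplicit false

namespace Cfsg.Agent.Helper17.TC

noncomputable section

/-- orbit data: for every point a packed entry (label, generator index, parent, depth) -/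
structure Orb where
  O : Arr
  WO : ℕ
  mO : ℕ
  roots : List ℕ

section Defs

variable (c : Cert) (o : Orb)

def entO (v : ℕ) : ℕ := fld c o.O o.WO o.mO v
def labE (e : ℕ) : ℕ := Nat.land e 7
def genE (e : ℕ) : ℕ := Nat.land (Nat.shiftRight e 3) 15
def parE (e : ℕ) : ℕ := Nat.land (Nat.shiftRight e 7) c.mn
def depE (e : ℕ) : ℕ := Nat.shiftRight e (Nat.add 7 c.bn)
def labO (v : ℕ) : ℕ := labE (entO c o v)
def depO (v : ℕ) : ℕ := depE c (entO c o v)

/-- all words of the list preserve the label `l` at `v` -/
def invAt (l v : ℕ) (ws : List (List ℕ)) : Bool :=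
  List.rec (motive := fun _ => Bool) true
    (fun w _ ih => cond (Nat.beq (labO c o (walkF c w v)) l) ih false) ws

/-- the orbit checks at the point `v` -/
def orbAt (v : ℕ) : Bool :=
  force (entO c o v) fun e =>
    cond (invAt c o (labE e) v c.subs)
      (Nat.rec (motive := fun _ => Bool) (Nat.beq (getL o.roots (labE e)) v)
        (fun _ _ => cond (Nat.blt (parE c e) c.N)
          (cond (Nat.blt (depO c o (parE c e)) (depE c e))
            (Nat.beq (walkF c (getW c.subs (genE e)) (parE c e)) v) false) false)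
        (depE c e))
      false

/-- the orbit checks for the points `lo, …, lo + n - 1` -/
def chkRangeO (lo : ℕ) : ℕ → Bool :=
  Nat.rec (motive := fun _ => Bool) true
    (fun k ih => cond (orbAt c o (Nat.add lo k)) ih false)

/-- number of points `v ∈ [lo, lo + 2^d)`, `v < N`, with label `k` -/
def cntB (k : ℕ) : ℕ → ℕ → ℕ :=
  Nat.rec (motive := fun _ => ℕ → ℕ)
    (fun lo => cond (Nat.blt lo c.N) (cond (Nat.beq (labO c o lo) k) 1 0) 0)
    (fun d ih lo => Nat.add (ih lo) (ih (Nat.add lo (Nat.pow 2 d))))

/-- the root of the label `k` is a point with label `k` and depth `0` -/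
def rootOK (k : ℕ) : Bool :=
  cond (Nat.blt (getL o.roots k) c.N)
    (cond (Nat.beq (labO c o (getL o.roots k)) k) (Nat.beq (depO c o (getL o.roots k)) 0) false)
    false

theorem invAt_spec (l v : ℕ) : ∀ ws : List (List ℕ), invAt c o l v ws = true →
    ∀ w ∈ ws, labO c o (walkF c w v) = l := by
  intro ws
  induction ws with
  | nil => intro _ w hw; exact absurd hw (by simp)
  | cons w0 ws ih =>
    intro h w hw
    have h' : cond (Nat.beq (labO c o (walkF c w0 v)) l) (invAt c o l v ws) false = true := h
    cases h1 : Nat.beq (labO c o (walkF c w0 v)) l with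
    | false => rw [h1] at h'; exact absurd h' (by simp)
    | true =>
      rw [h1] at h'
      simp only [cond_true] at h'
      rcases List.mem_cons.mp hw with rfl | hw
      · exact Nat.eq_of_beq_eq_true h1
      · exact ih h' w hw

theorem orbAt_spec {v : ℕ} (h : orbAt c o v = true) :
    (∀ w ∈ c.subs, labO c o (walkF c w v) = labO c o v) ∧
    ((depO c o v = 0 ∧ getL o.roots (labO c o v) = v) ∨
     (∃ p j, p < c.N ∧ depO c o p < depO c o v ∧ walkF c (getW c.subs j) p = v)) := by
  unfold orbAt at h
  rw [force_eq] at h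
  cases h1 : invAt c o (labE (entO c o v)) v c.subs with
  | false => rw [h1] at h; exact absurd h (by simp)
  | true =>
    rw [h1] at h
    simp only [cond_true] at h
    refine ⟨invAt_spec c o _ v _ h1, ?_⟩
    cases hd : depE c (entO c o v) with
    | zero =>
      rw [hd] at h
      left
      exact ⟨hd, Nat.eq_of_beq_eq_true h⟩
    | succ d =>
      rw [hd] at h
      simp only [] at h
      right
      cases h2 : Nat.blt (parE c (entO c o v)) c.N with
      | false => rw [h2] at h; exact absurd h (by simp)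
      | true =>
        rw [h2] at h
        simp only [cond_true] at h
        cases h3 : Nat.blt (depO c o (parE c (entO c o v))) (d + 1) with
        | false => rw [h3] at h; exact absurd h (by simp)
        | true =>
          rw [h3] at h
          simp only [cond_true] at h
          refine ⟨parE c (entO c o v), genE (entO c o v), by rwa [Nat.blt_eq] at h2, ?_,
            Nat.eq_of_beq_eq_true h⟩
          show _ < depE c (entO c o v)
          rw [hd]
          rwa [Nat.blt_eq] at h3

theorem chkRangeO_spec (lo : ℕ) : ∀ n : ℕ, chkRangeO c o lo n = true →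
    ∀ k < n, orbAt c o (lo + k) = true := by
  intro n
  induction n with
  | zero => intro _ k hk; exact absurd hk (Nat.not_lt_zero _)
  | succ n ih =>
    intro h k hk
    have h' : cond (orbAt c o (Nat.add lo n)) (chkRangeO c o lo n) false = true := h
    cases hb : orbAt c o (Nat.add lo n) with
    | false => rw [hb] at h'; exact absurd h' (by simp)
    | true =>
      rw [hb] at h'
      rcases Nat.lt_succ_iff_lt_or_eq.mp hk with hk | rfl
      · exact ih h' k hk
      · exact hb

theorem rootOK_spec {k : ℕ} (h : rootOK c o k = true) :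
    getL o.roots k < c.N ∧ labO c o (getL o.roots k) = k ∧ depO c o (getL o.roots k) = 0 := by
  unfold rootOK at h
  cases h1 : Nat.blt (getL o.roots k) c.N with
  | false => rw [h1] at h; exact absurd h (by simp)
  | true =>
    rw [h1] at h
    simp only [cond_true] at h
    cases h2 : Nat.beq (labO c o (getL o.roots k)) k with
    | false => rw [h2] at h; exact absurd h (by simp)
    | true =>
      rw [h2] at h
      simp only [cond_true] at h
      exact ⟨by rwa [Nat.blt_eq] at h1, Nat.eq_of_beq_eq_true h2, Nat.eq_of_beq_eq_true h⟩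

theorem cntB_spec (k : ℕ) : ∀ d lo : ℕ, cntB c o k d lo =
    ((Finset.Ico lo (lo + 2 ^ d)).filter (fun v => v < c.N ∧ labO c o v = k)).card := by
  intro d
  induction d with
  | zero =>
    intro lo
    show cond (Nat.blt lo c.N) (cond (Nat.beq (labO c o lo) k) 1 0) 0 = _
    have hI : Finset.Ico lo (lo + 2 ^ 0) = {lo} := by
      ext x
      simp only [Finset.mem_Ico, Finset.mem_singleton, pow_zero]
      omega
    rw [hI, Finset.filter_singleton]
    by_cases h1 : lo < c.N
    · have e1 : Nat.blt lo c.N = true := by rw [Nat.blt_eq]; exact h1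
      rw [e1]
      by_cases h2 : labO c o lo = k
      · have e2 : Nat.beq (labO c o lo) k = true := by rw [h2]; exact Nat.beq_refl k
        rw [e2, if_pos ⟨h1, h2⟩]
        rfl
      · have e2 : Nat.beq (labO c o lo) k = false := by
          cases hb : Nat.beq (labO c o lo) k with
          | false => rfl
          | true => exact absurd (Nat.eq_of_beq_eq_true hb) h2
        rw [e2, if_neg (fun hh => h2 hh.2)]
        rfl
    · have e1 : Nat.blt lo c.N = false := by
        cases hb : Nat.blt lo c.N with
        | false => rfl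
        | true => rw [Nat.blt_eq] at hb; exact absurd hb h1
      rw [e1, if_neg (fun hh => h1 hh.1)]
      rfl
  | succ d ih =>
    intro lo
    show Nat.add (cntB c o k d lo) (cntB c o k d (Nat.add lo (Nat.pow 2 d))) = _
    rw [ih, ih]
    have hU : Finset.Ico lo (lo + 2 ^ (d + 1)) =
        Finset.Ico lo (lo + 2 ^ d) ∪ Finset.Ico (lo + 2 ^ d) (lo + 2 ^ d + 2 ^ d) := by
      ext x
      simp only [Finset.mem_Ico, Finset.mem_union, pow_succ]
      omega
    rw [hU, Finset.filter_union, Finset.card_union_of_disjoint]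
    · rfl
    · apply Finset.disjoint_filter_filter
      rw [Finset.disjoint_left]
      intro x hx1 hx2
      simp only [Finset.mem_Ico] at hx1 hx2
      omega

end Defs

section Main

variable {c : Cert} {o : Orb}

/-- the orbit of the root of the label `k` is the set of the points with label `k` -/
theorem orbit_iff {G : Type*} [Group G] (H : Subgroup G) (T : Set G)
    (hHT : H = Subgroup.closure T)
    (ρ : G →* Equiv.Perm (Fin c.N)) (e : G ⧸ H ≃ Fin c.N)
    (he : ∀ (a : G) (q : G ⧸ H), e (a • q) = ρ a (e q))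
    (hT1 : ∀ t ∈ T, ∃ w ∈ c.subs, ∀ v : Fin c.N, (((ρ t)⁻¹ v : Fin c.N) : ℕ) = walkF c w v)
    (hT2 : ∀ w ∈ c.subs, ∃ t ∈ T, ∀ v : Fin c.N, (((ρ t)⁻¹ v : Fin c.N) : ℕ) = walkF c w v)
    (hO : ∀ v < c.N, orbAt c o v = true)
    (k : ℕ) (hk : rootOK c o k = true) :
    ∃ hr : getL o.roots k < c.N, ∀ q : G ⧸ H,
      q ∈ MulAction.orbit H (e.symm ⟨getL o.roots k, hr⟩) ↔ labO c o (e q) = k := by
  obtain ⟨hr, hlab, hdep⟩ := rootOK_spec c o hk
  refine ⟨hr, ?_⟩
  have hinv1 : ∀ t ∈ T, ∀ v : Fin c.N, labO c o ((ρ t)⁻¹ v : Fin c.N) = labO c o v := by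
    intro t ht v
    obtain ⟨w, hw, hwv⟩ := hT1 t ht
    rw [hwv v]
    exact (orbAt_spec c o (hO v v.2)).1 w hw
  have hinvH : ∀ a ∈ H, ∀ v : Fin c.N, labO c o (ρ a v : Fin c.N) = labO c o v ∧
      labO c o ((ρ a)⁻¹ v : Fin c.N) = labO c o v := by
    intro a ha
    rw [hHT] at ha
    refine Subgroup.closure_induction (p := fun (a : G) _ => ∀ v : Fin c.N,
      labO c o (ρ a v : Fin c.N) = labO c o v ∧ labO c o ((ρ a)⁻¹ v : Fin c.N) = labO c o v)
      ?_ ?_ ?_ ?_ ha
    · intro t ht v
      refine ⟨?_, hinv1 t ht v⟩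
      have h0 := hinv1 t ht (ρ t v)
      have e0 : (ρ t)⁻¹ (ρ t v) = v := by simp
      rw [e0] at h0
      exact h0.symm
    · intro v
      simp
    · intro a b _ _ iha ihb v
      refine ⟨?_, ?_⟩
      · rw [map_mul, Equiv.Perm.mul_apply, (iha _).1, (ihb _).1]
      · rw [map_mul, mul_inv_rev, Equiv.Perm.mul_apply, (ihb _).2, (iha _).2]
    · intro a _ iha v
      rw [map_inv, inv_inv]
      exact ⟨(iha v).2, (iha v).1⟩
  have hreach : ∀ d v, ∀ hv : v < c.N, depO c o v = d → labO c o v = k →
      ∃ a ∈ H, ρ a ⟨getL o.roots k, hr⟩ = ⟨v, hv⟩ := by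
    intro d
    induction d using Nat.strong_induction_on with
    | _ d ih =>
      intro v hv hd hl
      obtain ⟨-, hcase⟩ := orbAt_spec c o (hO v hv)
      rcases hcase with ⟨-, hroot⟩ | ⟨p, j, hp, hdp, hwalk⟩
      · refine ⟨1, H.one_mem, ?_⟩
        rw [map_one]
        apply Fin.ext
        show getL o.roots k = v
        rw [← hl]
        exact hroot
      · rcases getW_mem c.subs j with hj | hj
        · rw [hj] at hwalk
          have hpv : p = v := hwalk
          subst hpv
          omega
        · obtain ⟨t, ht, htw⟩ := hT2 _ hj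
          have hlp : labO c o p = k := by
            have h1 := (orbAt_spec c o (hO p hp)).1 _ hj
            rw [hwalk] at h1
            rw [← h1, hl]
          obtain ⟨a, ha, hap⟩ := ih (depO c o p) (by omega) p hp rfl hlp
          have htH : t ∈ H := by rw [hHT]; exact Subgroup.subset_closure ht
          refine ⟨t⁻¹ * a, H.mul_mem (H.inv_mem htH) ha, ?_⟩
          rw [map_mul, Equiv.Perm.mul_apply, hap, map_inv]
          apply Fin.ext
          rw [htw ⟨p, hp⟩]
          exact hwalk
  intro q
  constructor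
  · rintro ⟨⟨a, ha⟩, rfl⟩
    have e1 : (⟨a, ha⟩ : H) • e.symm ⟨getL o.roots k, hr⟩ = a • e.symm ⟨getL o.roots k, hr⟩ := rfl
    show labO c o (e ((⟨a, ha⟩ : H) • e.symm ⟨getL o.roots k, hr⟩)) = k
    rw [e1, he, Equiv.apply_symm_apply, (hinvH a ha _).1]
    exact hlab
  · intro hq
    obtain ⟨a, ha, hae⟩ := hreach _ (e q) (e q).2 rfl hq
    refine ⟨⟨a, ha⟩, ?_⟩
    apply e.injective
    show e (a • e.symm ⟨getL o.roots k, hr⟩) = e q
    rw [he, Equiv.apply_symm_apply, hae]

/-- the size of the orbit of the root of the label `k` -/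
theorem orbit_ncard {G : Type*} [Group G] (H : Subgroup G) (e : G ⧸ H ≃ Fin c.N)
    (k : ℕ) (q0 : G ⧸ H)
    (hiff : ∀ q : G ⧸ H, q ∈ MulAction.orbit H q0 ↔ labO c o (e q) = k)
    (d : ℕ) (hd : c.N ≤ 2 ^ d) :
    (MulAction.orbit H q0).ncard = cntB c o k d 0 := by
  have hset : MulAction.orbit H q0 = {q | labO c o (e q) = k} := Set.ext hiff
  have himg : (fun q : G ⧸ H => ((e q : Fin c.N) : ℕ)) '' {q | labO c o (e q) = k} =
      ↑((Finset.Ico 0 (0 + 2 ^ d)).filter (fun v => v < c.N ∧ labO c o v = k)) := by
    ext v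
    simp only [Set.mem_image, Set.mem_ofPred_eq, Finset.coe_filter, Finset.mem_Ico]
    constructor
    · rintro ⟨q, hq, rfl⟩
      have := (e q).2
      exact ⟨⟨Nat.zero_le _, by omega⟩, (e q).2, hq⟩
    · rintro ⟨-, hv, hl⟩
      refine ⟨e.symm ⟨v, hv⟩, ?_, ?_⟩
      · rw [Equiv.apply_symm_apply]; exact hl
      · rw [Equiv.apply_symm_apply]
  have hinj : Function.Injective (fun q : G ⧸ H => ((e q : Fin c.N) : ℕ)) :=
    fun q1 q2 h => e.injective (Fin.ext h)
  rw [hset, cntB_spec, ← Set.ncard_coe_finset, ← himg, Set.ncard_image_of_injective _ hinj]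

end Main

section Pres

open Cfsg.Spor

variable {α : Type} [DecidableEq α]
variable {edges : List (α × ℕ × α)} {extra : List (FreeGroup α)} {S : Set (FreeGroup α)}
  {c : Cert} {colOf : α → ℕ} {colGen : ℕ → α × Bool} {nodes : List α} {extraEs subEs : List WE}

/-- the orbits of the subgroup on its cosets, for Coxeter-type presentations -/
theorem Link.orbits (L : Link edges extra S c colOf colGen nodes extraEs subEs) (h : Checked c)
    (o : Orb) (hO : ∀ v < c.N, orbAt c o v = true) (d : ℕ) (hd : c.N ≤ 2 ^ d) :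
    ∃ F : ℕ → PresentedGroup (coxRelators edges ∪ {r | r ∈ extra}) ⧸
        ((Subgroup.closure S).map (PresentedGroup.mk (coxRelators edges ∪ {r | r ∈ extra}))),
      (∀ k, rootOK c o k = true →
        (MulAction.orbit ((Subgroup.closure S).map
          (PresentedGroup.mk (coxRelators edges ∪ {r | r ∈ extra}))) (F k)).ncard =
            cntB c o k d 0) ∧
      (∀ k k', rootOK c o k = true → rootOK c o k' = true → k ≠ k' →
        MulAction.orbit ((Subgroup.closure S).map
          (PresentedGroup.mk (coxRelators edges ∪ {r | r ∈ extra}))) (F k) ≠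
        MulAction.orbit ((Subgroup.closure S).map
          (PresentedGroup.mk (coxRelators edges ∪ {r | r ∈ extra}))) (F k')) := by
  obtain ⟨ρ, e, he, -, hsubρ⟩ := L.main h
  have hHT : (Subgroup.closure S).map (PresentedGroup.mk (coxRelators edges ∪ {r | r ∈ extra})) =
      Subgroup.closure ((PresentedGroup.mk (coxRelators edges ∪ {r | r ∈ extra})) '' S) :=
    MonoidHom.map_closure _ _
  have hT1 : ∀ t ∈ (PresentedGroup.mk (coxRelators edges ∪ {r | r ∈ extra})) '' S,
      ∃ w ∈ c.subs, ∀ v : Fin c.N, (((ρ t)⁻¹ v : Fin c.N) : ℕ) = walkF c w v := by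
    rintro _ ⟨s, hs, rfl⟩
    obtain ⟨e', he', rfl⟩ := L.hS1 s hs
    refine ⟨e'.toList (getL c.invc), ?_, hsubρ e' he'⟩
    rw [L.hsubs]
    exact List.mem_map_of_mem he'
  have hT2 : ∀ w ∈ c.subs, ∃ t ∈ (PresentedGroup.mk (coxRelators edges ∪ {r | r ∈ extra})) '' S,
      ∀ v : Fin c.N, (((ρ t)⁻¹ v : Fin c.N) : ℕ) = walkF c w v := by
    intro w hw
    rw [L.hsubs, List.mem_map] at hw
    obtain ⟨e', he', rfl⟩ := hw
    exact ⟨_, ⟨_, L.hS2 e' he', rfl⟩, hsubρ e' he'⟩
  have key := fun k hk => orbit_iff (o := o) _ _ hHT ρ e he hT1 hT2 hO k hk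
  refine ⟨fun k => if hr : getL o.roots k < c.N then e.symm ⟨getL o.roots k, hr⟩
    else e.symm ⟨0, h.pos⟩, ?_, ?_⟩
  · intro k hk
    obtain ⟨hr, hiff⟩ := key k hk
    simp only [dif_pos hr]
    exact orbit_ncard _ e k _ hiff d hd
  · intro k k' hk hk' hne heq
    obtain ⟨hr, hiff⟩ := key k hk
    obtain ⟨hr', hiff'⟩ := key k' hk'
    simp only [dif_pos hr, dif_pos hr'] at heq
    have h1 := (hiff _).mp (MulAction.mem_orbit_self _)
    have h2 := (hiff' (e.symm ⟨getL o.roots k, hr⟩)).mp (by rw [← heq]; exact MulAction.mem_orbit_self _)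
    exact hne (h1.symm.trans h2)

end Pres

end

end Cfsg.Agent.Helper17.TC
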