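import Mathlib
import Cfsg.Prelude.Def_SporadicCombinatorics

/-!
# The ternary Golay code on the 4 × 3 array (helper17)

An explicit systematic generator matrix, the parametrisation `enc` of the code by `(ZMod 3)^6`
and the finite checks (done by kernel evaluation) behind the weight distribution.
-/

set_option autoImplicit false

namespace Cfsg.Agent.Helper17.TGolay

open Cfsg

/-- six coordinates -/
abbrev T6 : Type := ZMod 3 × ZMod 3 × ZMod 3 × ZMod 3 × ZMod 3 × ZMod 3

/-- a word on the array from its twelve entries -/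
def ofRows (M : Fin 4 → Fin 3 → ZMod 3) : ArrayPt → ZMod 3 := fun p => M p.1 p.2

/-- the six rows of a systematic generator matrix (information positions
`(0,0), (0,1), (0,2), (1,0), (1,1), (2,0)`) -/
def G : Fin 6 → ArrayPt → ZMod 3 :=
  ![ofRows ![![1, 0, 0], ![0, 0, 1], ![0, 0, 1], ![1, 1, 2]],
    ofRows ![![0, 1, 0], ![0, 0, 1], ![0, 2, 2], ![2, 0, 2]],
    ofRows ![![0, 0, 1], ![0, 0, 1], ![0, 1, 0], ![2, 1, 1]],
    ofRows ![![0, 0, 0], ![1, 0, 2], ![0, 2, 1], ![2, 1, 0]],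
    ofRows ![![0, 0, 0], ![0, 1, 2], ![0, 1, 2], ![0, 1, 2]],
    ofRows ![![0, 0, 0], ![0, 0, 0], ![1, 1, 1], ![2, 2, 2]]]

/-- the code word with information symbols `t` -/
def enc (t : T6) : ArrayPt → ZMod 3 := fun p =>
  t.1 * G 0 p + t.2.1 * G 1 p + t.2.2.1 * G 2 p + t.2.2.2.1 * G 3 p + t.2.2.2.2.1 * G 4 p +
    t.2.2.2.2.2 * G 5 p

/-- the information symbols of a word -/
def info (x : ArrayPt → ZMod 3) : T6 :=
  (x (0, 0), x (0, 1), x (0, 2), x (1, 0), x (1, 1), x (2, 0))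

theorem tet_mem (a b : ZMod 3) : a • ![0, 1, 1, 1] + b • ![1, 0, 1, 2] ∈ tetracode :=
  Submodule.add_mem _ (Submodule.smul_mem _ _ (Submodule.subset_span (by simp)))
    (Submodule.smul_mem _ _ (Submodule.subset_span (by simp)))

theorem tet_cases {t : Fin 4 → ZMod 3} (ht : t ∈ tetracode) :
    ∃ a b : ZMod 3, t = a • ![0, 1, 1, 1] + b • ![1, 0, 1, 2] := by
  unfold tetracode at ht
  rw [Submodule.mem_span_pair] at ht
  obtain ⟨a, b, h⟩ := ht
  exact ⟨a, b, h.symm⟩

theorem G_word : ∀ j : Fin 6, ∃ s : ZMod 3, (∀ i : Fin 4, ∑ r : ZMod 3, G j (i, r) = -s) ∧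
    ∀ a b : ZMod 3, ∑ i : Fin 4, G j (i, (a • ![0, 1, 1, 1] + b • ![1, 0, 1, 2] : Fin 4 → ZMod 3) i) = s := by
  decide +kernel

theorem G_mem (j : Fin 6) : G j ∈ ternaryGolayCode := by
  obtain ⟨s, h1, h2⟩ := G_word j
  refine ⟨s, h1, fun t ht => ?_⟩
  obtain ⟨a, b, rfl⟩ := tet_cases ht
  exact h2 a b

theorem enc_eq (t : T6) : enc t = t.1 • G 0 + t.2.1 • G 1 + t.2.2.1 • G 2 + t.2.2.2.1 • G 3 +
    t.2.2.2.2.1 • G 4 + t.2.2.2.2.2 • G 5 := by
  funext p
  simp [enc]

theorem enc_mem (t : T6) : enc t ∈ ternaryGolayCode := by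
  rw [enc_eq]
  exact Submodule.add_mem _ (Submodule.add_mem _ (Submodule.add_mem _ (Submodule.add_mem _
    (Submodule.add_mem _ (Submodule.smul_mem _ _ (G_mem 0)) (Submodule.smul_mem _ _ (G_mem 1)))
    (Submodule.smul_mem _ _ (G_mem 2))) (Submodule.smul_mem _ _ (G_mem 3)))
    (Submodule.smul_mem _ _ (G_mem 4))) (Submodule.smul_mem _ _ (G_mem 5))

theorem info_enc : ∀ t : T6, info (enc t) = t := by
  decide +kernel

theorem ofRows_eta (x : ArrayPt → ZMod 3) :
    x = ofRows ![![x (0, 0), x (0, 1), x (0, 2)], ![x (1, 0), x (1, 1), x (1, 2)],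
      ![x (2, 0), x (2, 1), x (2, 2)], ![x (3, 0), x (3, 1), x (3, 2)]] := by
  funext ⟨i, r⟩
  fin_cases i <;> fin_cases r <;> rfl

theorem vanish_aux : ∀ a b c d e f s : ZMod 3,
    (∀ i : Fin 4, ∑ r : ZMod 3,
      ofRows ![![0, 0, 0], ![0, 0, a], ![0, b, c], ![d, e, f]] (i, r) = -s) →
    (∀ a' b' : ZMod 3, ∑ i : Fin 4,
      ofRows ![![0, 0, 0], ![0, 0, a], ![0, b, c], ![d, e, f]]
        (i, (a' • ![0, 1, 1, 1] + b' • ![1, 0, 1, 2] : Fin 4 → ZMod 3) i) = s) →
    a = 0 ∧ b = 0 ∧ c = 0 ∧ d = 0 ∧ e = 0 ∧ f = 0 := by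
  decide +kernel

theorem vanish {x : ArrayPt → ZMod 3} (hx : x ∈ ternaryGolayCode) (h : info x = 0) : x = 0 := by
  obtain ⟨s, h1, h2⟩ := hx
  have h2' : ∀ a' b' : ZMod 3, ∑ i : Fin 4,
      x (i, (a' • ![0, 1, 1, 1] + b' • ![1, 0, 1, 2] : Fin 4 → ZMod 3) i) = s :=
    fun a' b' => h2 _ (tet_mem a' b')
  simp only [info, Prod.mk_eq_zero] at h
  obtain ⟨e1, e2, e3, e4, e5, e6⟩ := h
  rw [ofRows_eta x] at h1 h2' ⊢
  simp only [e1, e2, e3, e4, e5, e6] at h1 h2' ⊢
  obtain ⟨ha, hb, hc, hd, he, hf⟩ := vanish_aux _ _ _ _ _ _ s h1 h2'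
  simp only [ha, hb, hc, hd, he, hf]
  funext ⟨i, r⟩
  fin_cases i <;> fin_cases r <;> rfl

theorem info_sub (x y : ArrayPt → ZMod 3) : info (x - y) = info x - info y := rfl

theorem enc_info {x : ArrayPt → ZMod 3} (hx : x ∈ ternaryGolayCode) : enc (info x) = x := by
  have h : x - enc (info x) = 0 := by
    apply vanish (Submodule.sub_mem _ hx (enc_mem _))
    rw [info_sub, info_enc, sub_self]
  exact (sub_eq_zero.mp h).symm

theorem mem_iff (x : ArrayPt → ZMod 3) : x ∈ ternaryGolayCode ↔ ∃ t : T6, enc t = x :=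
  ⟨fun hx => ⟨info x, enc_info hx⟩, fun ⟨t, ht⟩ => ht ▸ enc_mem t⟩

theorem enc_injective : Function.Injective enc := fun t t' h => by
  rw [← info_enc t, ← info_enc t', h]

theorem code_eq_range : (ternaryGolayCode : Set (ArrayPt → ZMod 3)) = Set.range enc := by
  ext x
  exact mem_iff x

theorem card_code : Nat.card ternaryGolayCode = 729 := by
  have h : Nat.card ternaryGolayCode = Nat.card (Set.range enc) := by
    rw [← code_eq_range]; rfl
  rw [h, Nat.card_range_of_injective enc_injective]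
  simp [Nat.card_eq_fintype_card, ZMod.card]

theorem enc_zero : enc 0 = 0 := by
  funext p; simp [enc]

theorem weights : ∀ t : T6, t = 0 ∨ (ternarySupport (enc t)).card = 6 ∨
    (ternarySupport (enc t)).card = 9 ∨ (ternarySupport (enc t)).card = 12 := by
  decide +kernel

theorem count6 : (Finset.univ.filter fun t : T6 => (ternarySupport (enc t)).card = 6).card = 264 := by
  decide +kernel

theorem count9 : (Finset.univ.filter fun t : T6 => (ternarySupport (enc t)).card = 9).card = 440 := by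
  decide +kernel

theorem count12 : (Finset.univ.filter fun t : T6 => (ternarySupport (enc t)).card = 12).card = 24 := by
  decide +kernel

theorem ncard_weight (k : ℕ) :
    {x : ArrayPt → ZMod 3 | x ∈ ternaryGolayCode ∧ (ternarySupport x).card = k}.ncard =
      (Finset.univ.filter fun t : T6 => (ternarySupport (enc t)).card = k).card := by
  have h : {x : ArrayPt → ZMod 3 | x ∈ ternaryGolayCode ∧ (ternarySupport x).card = k} =
      enc '' ((Finset.univ.filter fun t : T6 => (ternarySupport (enc t)).card = k) : Finset T6) := by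
    ext x
    simp only [Set.mem_ofPred_eq, Set.mem_image, Finset.coe_filter, Finset.mem_univ, true_and]
    constructor
    · rintro ⟨hx, hk⟩
      exact ⟨info x, by rw [enc_info hx]; exact hk, enc_info hx⟩
    · rintro ⟨t, ht, rfl⟩
      exact ⟨enc_mem t, ht⟩
  rw [h, Set.ncard_image_of_injective _ enc_injective, Set.ncard_coe_finset]

theorem norm_zero : ∀ t : T6, ∑ p : ArrayPt, enc t p * enc t p = 0 := by
  decide +kernel

theorem norm_zero' {x : ArrayPt → ZMod 3} (hx : x ∈ ternaryGolayCode) : ∑ p : ArrayPt, x p * x p = 0 := by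
  rw [← enc_info hx]; exact norm_zero _

theorem orth {x y : ArrayPt → ZMod 3} (hx : x ∈ ternaryGolayCode) (hy : y ∈ ternaryGolayCode) :
    ∑ p : ArrayPt, x p * y p = 0 := by
  have h := norm_zero' (Submodule.add_mem _ hx hy)
  have e : ∑ p : ArrayPt, (x + y) p * (x + y) p =
      ∑ p : ArrayPt, x p * x p + 2 * ∑ p : ArrayPt, x p * y p + ∑ p : ArrayPt, y p * y p := by
    simp only [Pi.add_apply, Finset.mul_sum, ← Finset.sum_add_distrib]
    exact Finset.sum_congr rfl fun p _ => by ring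
  rw [e, norm_zero' hx, norm_zero' hy, zero_add, add_zero] at h
  generalize ∑ p : ArrayPt, x p * y p = b at h
  revert b
  decide

theorem min_weight {x : ArrayPt → ZMod 3} (hx : x ∈ ternaryGolayCode) (hne : x ≠ 0) :
    6 ≤ (ternarySupport x).card := by
  rw [← enc_info hx] at hne ⊢
  rcases weights (info x) with h | h | h | h
  · exact absurd (by rw [h, enc_zero]) hne
  all_goals omega

/-- witnesses: a word of weight six through `(0, 0)` and `q` -/
def W (q : ArrayPt) : T6 :=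
  (![![(1, 0, 0, 0, 0, 0), (1, 1, 0, 0, 0, 0), (1, 0, 1, 0, 0, 0)],
    ![(1, 0, 0, 1, 0, 0), (1, 0, 0, 0, 1, 0), (1, 0, 0, 0, 0, 0)],
    ![(1, 0, 0, 0, 0, 1), (1, 0, 0, 0, 0, 1), (1, 0, 0, 0, 0, 0)],
    ![(1, 0, 0, 0, 0, 0), (1, 0, 0, 0, 0, 0), (1, 0, 0, 0, 0, 0)]] : Fin 4 → Fin 3 → T6) q.1 q.2

theorem W_spec : ∀ q : ArrayPt, (ternarySupport (enc (W q))).card = 6 ∧ enc (W q) (0, 0) ≠ 0 ∧
    enc (W q) q ≠ 0 := by
  decide +kernel

theorem unit_cases : ∀ a : ZMod 3, a ≠ 0 → a = 1 ∨ a = -1 := by decide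

theorem diag_const (c : ArrayPt → (ZMod 3)ˣ)
    (h : ∀ x ∈ ternaryGolayCode, monomialMap 1 c x ∈ ternaryGolayCode) (q : ArrayPt) :
    c q = c (0, 0) := by
  obtain ⟨h6, h0, hq⟩ := W_spec q
  set x := enc (W q) with hxdef
  have hx : x ∈ ternaryGolayCode := enc_mem _
  set z : ArrayPt → ZMod 3 := fun p => ((c p : ZMod 3) - (c (0, 0) : ZMod 3)) * x p with hz
  have hzmem : z ∈ ternaryGolayCode := by
    have e : z = monomialMap 1 c x - (c (0, 0) : ZMod 3) • x := by
      funext p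
      change ((c p : ZMod 3) - (c (0, 0) : ZMod 3)) * x p =
        (c p : ZMod 3) * x p - (c (0, 0) : ZMod 3) * x p
      ring
    rw [e]
    exact Submodule.sub_mem _ (h x hx) (Submodule.smul_mem _ _ hx)
  have hsub : ternarySupport z ⊆ (ternarySupport x).erase (0, 0) := by
    intro p hp
    simp only [ternarySupport, Finset.mem_filter, Finset.mem_univ, true_and, Finset.mem_erase] at hp ⊢
    refine ⟨?_, ?_⟩
    · rintro rfl
      exact hp (by simp [hz])
    · intro h0'
      exact hp (by simp [hz, h0'])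
  have hcard : (ternarySupport z).card ≤ 5 := by
    have h1 := Finset.card_le_card hsub
    have h2 : (0, 0) ∈ ternarySupport x := by
      simp only [ternarySupport, Finset.mem_filter, Finset.mem_univ, true_and]
      exact h0
    rw [Finset.card_erase_of_mem h2, h6] at h1
    exact h1
  have hz0 : z = 0 := by
    by_contra hne
    have := min_weight hzmem hne
    omega
  have hzq : ((c q : ZMod 3) - (c (0, 0) : ZMod 3)) * x q = 0 := congrFun hz0 q
  rcases mul_eq_zero.mp hzq with h' | h'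
  · exact Units.ext (sub_eq_zero.mp h')
  · exact absurd h' hq

theorem diag_kernel (c : ArrayPt → (ZMod 3)ˣ)
    (h : ∀ x ∈ ternaryGolayCode, monomialMap 1 c x ∈ ternaryGolayCode) :
    (∀ p, c p = 1) ∨ (∀ p, c p = -1) := by
  rcases unit_cases (c (0, 0) : ZMod 3) (Units.ne_zero _) with h1 | h1
  · left
    intro p
    rw [diag_const c h p]
    exact Units.ext h1
  · right
    intro p
    rw [diag_const c h p]
    exact Units.ext (by rw [h1]; simp)

end Cfsg.Agent.Helper17.TGolay
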