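import Mathlib
import Cfsg.Agent.Helper17.TGolay

/-!
# The hexads of the ternary Golay code form a Steiner system S(5, 6, 12) (helper17)
-/

set_option autoImplicit false

namespace Cfsg.Agent.Helper17.TGolay

open Cfsg

/-- counting criterion for a Steiner system: blocks of size `k`, any two of them meeting in fewer
than `t` points, and just enough of them. -/
theorem steiner_of_count {α : Type*} [Fintype α] [DecidableEq α] (H : Finset (Finset α))
    (t k : ℕ) (hk : ∀ h ∈ H, h.card = k)
    (hint : ∀ h ∈ H, ∀ h' ∈ H, h ≠ h' → (h ∩ h').card < t)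
    (hcount : H.card * k.choose t = (Fintype.card α).choose t) :
    ∀ s : Finset α, s.card = t → ∃! b, b ∈ H ∧ s ⊆ b := by
  classical
  set S := Finset.powersetCard t (Finset.univ : Finset α) with hS
  have hle : ∀ s ∈ S, (H.filter (s ⊆ ·)).card ≤ 1 := by
    intro s hs
    rw [Finset.card_le_one]
    intro a ha b hb
    by_contra hab
    simp only [Finset.mem_filter] at ha hb
    have h1 := hint a ha.1 b hb.1 hab
    have h2 := Finset.card_le_card (Finset.subset_inter ha.2 hb.2)
    rw [(Finset.mem_powersetCard.mp hs).2] at h2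
    omega
  have hsum : ∑ s ∈ S, (H.filter (s ⊆ ·)).card = S.card := by
    have h1 := Finset.sum_card_bipartiteAbove_eq_sum_card_bipartiteBelow (s := S) (t := H)
      (fun s h => s ⊆ h)
    have h2 : ∀ h ∈ H, (Finset.bipartiteBelow (fun s h => s ⊆ h) S h).card = k.choose t := by
      intro h hh
      have e : Finset.bipartiteBelow (fun s h => s ⊆ h) S h = Finset.powersetCard t h := by
        ext s
        simp only [Finset.bipartiteBelow, Finset.mem_filter, hS, Finset.mem_powersetCard,
          Finset.subset_univ, true_and]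
        tauto
      rw [e, Finset.card_powersetCard, hk h hh]
    have h3 : ∑ s ∈ S, (H.filter (s ⊆ ·)).card = ∑ h ∈ H, k.choose t := by
      rw [← Finset.sum_congr rfl h2, ← h1]
      rfl
    rw [h3, Finset.sum_const, smul_eq_mul, hcount, hS, Finset.card_powersetCard, Finset.card_univ]
  intro s hs
  have hs' : s ∈ S := Finset.mem_powersetCard.mpr ⟨Finset.subset_univ _, hs⟩
  have h1 : (H.filter (s ⊆ ·)).card = 1 := by
    by_contra hne
    have h0 : (H.filter (s ⊆ ·)).card < 1 := lt_of_le_of_ne (hle s hs') hne
    have h4 : ∑ s ∈ S, (H.filter (s ⊆ ·)).card < ∑ s ∈ S, 1 :=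
      Finset.sum_lt_sum (fun i hi => hle i hi) ⟨s, hs', h0⟩
    rw [hsum] at h4
    simp at h4
  obtain ⟨b, hb⟩ := Finset.card_eq_one.mp h1
  refine ⟨b, ?_, ?_⟩
  · have h5 : b ∈ H.filter (s ⊆ ·) := by rw [hb]; exact Finset.mem_singleton_self b
    simpa using h5
  · intro b' hb'
    have h5 : b' ∈ H.filter (s ⊆ ·) := by simpa using hb'
    rw [hb] at h5
    simpa using h5

/-- the hexads, as a finite set -/
def HF : Finset (Finset ArrayPt) :=
  (Finset.univ.filter fun t : T6 => (ternarySupport (enc t)).card = 6).image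
    fun t => ternarySupport (enc t)

theorem hexads_eq : {h : Finset ArrayPt | ∃ x ∈ ternaryGolayCode, ternarySupport x = h ∧ h.card = 6} =
    (HF : Set (Finset ArrayPt)) := by
  ext h
  simp only [Set.mem_ofPred_eq, HF, Finset.coe_image, Finset.coe_filter, Finset.mem_univ, true_and,
    Set.mem_image]
  constructor
  · rintro ⟨x, hx, rfl, hc⟩
    exact ⟨info x, by rw [enc_info hx]; exact hc, by rw [enc_info hx]⟩
  · rintro ⟨t, ht, rfl⟩
    exact ⟨enc t, enc_mem t, rfl, ht⟩

set_option maxHeartbeats 0 in
theorem HF_card : HF.card = 132 := by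
  decide +kernel

theorem z3_add : ∀ a b : ZMod 3, a ≠ 0 → b ≠ 0 → a ≠ b → a + b = 0 := by decide

/-- two words of weight six with different supports meet in at most four points -/
theorem supp_inter_lt {x y : ArrayPt → ZMod 3} (hx : x ∈ ternaryGolayCode)
    (hy : y ∈ ternaryGolayCode) (h6x : (ternarySupport x).card = 6)
    (h6y : (ternarySupport y).card = 6) (hne : ternarySupport x ≠ ternarySupport y) :
    (ternarySupport x ∩ ternarySupport y).card < 5 := by
  by_contra hcon
  rw [not_lt] at hcon
  obtain ⟨S, hS⟩ : ∃ S, S = ternarySupport x ∩ ternarySupport y := ⟨_, rfl⟩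
  rw [← hS] at hcon
  have hU : (ternarySupport x ∪ ternarySupport y).card ≤ 7 := by
    have h1 := Finset.card_union_add_card_inter (ternarySupport x) (ternarySupport y)
    rw [← hS] at h1
    omega
  have key : ∀ (z : ArrayPt → ZMod 3) (A : Finset ArrayPt), z ∈ ternaryGolayCode →
      A ⊆ ternarySupport x ∪ ternarySupport y → 3 ≤ A.card →
      (∀ p, z p ≠ 0 → p ∈ (ternarySupport x ∪ ternarySupport y) ∧ p ∉ A) → z = 0 := by
    intro z A hz hA h3 hsupp
    by_contra hz0
    have h6 := min_weight hz hz0
    have hsub : ternarySupport z ⊆ (ternarySupport x ∪ ternarySupport y) \ A := by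
      intro p hp
      have h1 : z p ≠ 0 := by simpa [ternarySupport] using hp
      rw [Finset.mem_sdiff]; exact hsupp p h1
    have h1 := Finset.card_le_card hsub
    have h2 := Finset.card_sdiff_add_card_eq_card hA
    omega
  have hsplit := Finset.card_filter_add_card_filter_not (s := S) (fun p => x p = y p)
  have memS : ∀ p ∈ S, x p ≠ 0 ∧ y p ≠ 0 := by
    intro p hp
    simpa [hS, ternarySupport] using hp
  have hsubU : ∀ (q : ArrayPt → Prop) [DecidablePred q], S.filter q ⊆
      ternarySupport x ∪ ternarySupport y := by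
    intro q _ p hp
    have h1 := (Finset.mem_filter.mp hp).1
    rw [hS] at h1
    exact Finset.mem_union_left _ (Finset.mem_of_mem_inter_left h1)
  have hzero : ∀ p, p ∉ ternarySupport x ∪ ternarySupport y → x p = 0 ∧ y p = 0 := by
    intro p hp
    simpa [ternarySupport] using hp
  rcases (by omega : 3 ≤ (S.filter (fun p => x p = y p)).card ∨
      3 ≤ (S.filter (fun p => ¬ x p = y p)).card) with hA | hB
  · have hz := key (x - y) (S.filter (fun p => x p = y p)) (Submodule.sub_mem _ hx hy)
      (hsubU _) hA (by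
        intro p hp
        refine ⟨?_, ?_⟩
        · by_contra hnot
          obtain ⟨h1, h2⟩ := hzero p hnot
          exact hp (by simp [h1, h2])
        · intro hA'
          exact hp (by simp [(Finset.mem_filter.mp hA').2]))
    apply hne
    rw [sub_eq_zero.mp hz]
  · have hz := key (x + y) (S.filter (fun p => ¬ x p = y p)) (Submodule.add_mem _ hx hy)
      (hsubU _) hB (by
        intro p hp
        refine ⟨?_, ?_⟩
        · by_contra hnot
          obtain ⟨h1, h2⟩ := hzero p hnot
          exact hp (by simp [h1, h2])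
        · intro hB'
          obtain ⟨hpS, hxy⟩ := Finset.mem_filter.mp hB'
          obtain ⟨hx0, hy0⟩ := memS p hpS
          exact hp (z3_add _ _ hx0 hy0 hxy))
    apply hne
    have h1 : y = -x := by
      rw [eq_neg_iff_add_eq_zero, add_comm]; exact hz
    rw [h1]
    ext p
    simp [ternarySupport]

theorem HF_inter : ∀ h ∈ HF, ∀ h' ∈ HF, h ≠ h' → (h ∩ h').card < 5 := by
  intro h hh h' hh' hne
  simp only [HF, Finset.mem_image, Finset.mem_filter, Finset.mem_univ, true_and] at hh hh'
  obtain ⟨t, ht, rfl⟩ := hh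
  obtain ⟨t', ht', rfl⟩ := hh'
  exact supp_inter_lt (enc_mem t) (enc_mem t') ht ht' hne

theorem HF_six : ∀ h ∈ HF, h.card = 6 := by
  intro h hh
  simp only [HF, Finset.mem_image, Finset.mem_filter, Finset.mem_univ, true_and] at hh
  obtain ⟨t, ht, rfl⟩ := hh
  exact ht

theorem hexads_steiner :
    IsSteinerSystem 5 6 {h : Finset ArrayPt | ∃ x ∈ ternaryGolayCode, ternarySupport x = h ∧ h.card = 6} ∧
    {h : Finset ArrayPt | ∃ x ∈ ternaryGolayCode, ternarySupport x = h ∧ h.card = 6}.ncard = 132 := by
  rw [hexads_eq]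
  refine ⟨⟨fun b hb => HF_six b hb, ?_⟩, ?_⟩
  · intro s hs
    have h := steiner_of_count HF 5 6 HF_six HF_inter (by rw [HF_card]; decide) s hs
    exact h
  · rw [Set.ncard_coe_finset, HF_card]

end Cfsg.Agent.Helper17.TGolay
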